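import Cfsg.Agent.Lib.TwoLength.Orbit
import Cfsg.Agent.Lib.TwoPowerFPF.Component

set_option autoImplicit false
set_option linter.unusedSectionVars false
set_option linter.style.haveILetI false

/-!
An element of two-power order of small degree in characteristic two on an irreducible group of class two.
-/

namespace Cfsg.Agent.Lib.TwoLength

open Cfsg.Agent.Lib.HallHigman Cfsg.Agent.Lib.TwoPowerFPF
open scoped commutatorElement

universe u v w

variable {K : Type w} {G : Type u} {V : Type v} [Field K] [Group G] [Finite G] [AddCommGroup V] [Module K V]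
  [FiniteDimensional K V]

/-- The commutator with a fixed element modulo scalars, as an equation. -/
theorem commutator_scalar_iff {ρ : G →* Module.End K V} {Q : Subgroup G}
    (hcomm : ∀ v ∈ Q, ∀ w ∈ Q, IsScalar ρ (v * w * v⁻¹ * w⁻¹)) {g v : G}
    (hg : g ∈ Subgroup.normalizer (Q : Set G)) (hv : v ∈ Q) :
    IsScalar ρ ⁅g, v⁆ ↔ IsScalar ρ (v⁻¹ * (g * v * g⁻¹)) := by
  have e : v⁻¹ * (g * v * g⁻¹) = v⁻¹ * ⁅g, v⁆ * v⁻¹⁻¹ := by rw [commutatorElement_def]; group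
  rw [e]
  refine ⟨fun h => isScalar_conj h _, fun h => ?_⟩
  simpa [mul_assoc] using isScalar_conj h v

/-- The scalars of a subgroup, inside the group. -/
def scalarsIn [Nontrivial V] (ρ : G →* Module.End K V) (Q : Subgroup G) : Subgroup G :=
  (scalars ρ Q).map Q.subtype

theorem mem_scalarsIn [Nontrivial V] {ρ : G →* Module.End K V} {Q : Subgroup G} {t : G} :
    t ∈ scalarsIn ρ Q ↔ t ∈ Q ∧ IsScalar ρ t :=
  ⟨fun ⟨v, hv, he⟩ => he ▸ ⟨v.2, hv⟩, fun ⟨h1, h2⟩ => ⟨⟨t, h1⟩, h2, rfl⟩⟩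

theorem mem_scalarsIn_of_commute [IsAlgClosed K] [Nontrivial V] {ρ : G →* Module.End K V} {Q : Subgroup G}
    (hirr : Irred ρ Q) {t : G} (ht : t ∈ Q) (h : ∀ s ∈ Q, ρ t * ρ s = ρ s * ρ t) : t ∈ scalarsIn ρ Q :=
  mem_scalarsIn.mpr ⟨ht, schur hirr _ fun s hs => (h s hs).symm⟩

/-- The displacement on an irreducible group of class two, in characteristic two. -/
theorem displacement [IsAlgClosed K] [CharP K 2] [Nontrivial V] {q : ℕ} [Fact q.Prime]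
    (ρ : G →* Module.End K V) (Q : Subgroup G) (hQ : IsPGroup q Q) (hq2 : q ≠ 2) (hirr : Irred ρ Q)
    (hcomm : ∀ v ∈ Q, ∀ w ∈ Q, IsScalar ρ (v * w * v⁻¹ * w⁻¹)) (hqK : (q : K) ≠ 0)
    (z : G) {m : ℕ} (hm : m ≠ 0) (hzQ : z ∈ Subgroup.normalizer (Q : Set G)) (hzN : z ^ 2 ^ m = 1)
    (hexc : (ρ z - 1) ^ (2 ^ m - 1) = 0)
    (hmoved : ∃ v ∈ Q, ¬ IsScalar ρ (v⁻¹ * (z ^ 2 ^ (m - 1) * v * (z ^ 2 ^ (m - 1))⁻¹))) :
    q + 1 = 2 ^ m ∧ ∃ R : Subgroup G, R ≤ Q ∧ R.relIndex Q ≤ q ^ 2 ∧ ∀ t ∈ R, IsScalar ρ ⁅z, t⁆ := by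
  classical
  have hq : q.Prime := Fact.out
  set y := z ^ 2 ^ (m - 1) with hy
  have hy2 : y ^ 2 = 1 := by
    rw [hy, ← pow_mul, ← pow_succ, Nat.sub_add_cancel (Nat.one_le_iff_ne_zero.mpr hm), hzN]
  have hyy : y * y = 1 := by rw [← sq, hy2]
  have hyi : y⁻¹ = y := by rw [inv_eq_iff_mul_eq_one, hyy]
  have hzy : Commute z y := Commute.self_pow z _
  have hyQ : y ∈ Subgroup.normalizer (Q : Set G) := Subgroup.pow_mem _ hzQ _
  have hyc : ∀ v ∈ Q, y * v * y⁻¹ ∈ Q := fun v hv => (Subgroup.mem_normalizer_iff.mp hyQ v).mp hv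
  let cy : G → G := fun v => v⁻¹ * (y * v * y⁻¹)
  have hcyQ : ∀ v ∈ Q, cy v ∈ Q := fun v hv => Q.mul_mem (Q.inv_mem hv) (hyc v hv)
  set Q1 := Subgroup.closure (cy '' (Q : Set G)) with hQ1
  have hQ1Q : Q1 ≤ Q := by
    rw [hQ1, Subgroup.closure_le]
    rintro _ ⟨v, hv, rfl⟩
    exact hcyQ v hv
  have hcy1 : ∀ v ∈ Q, cy v ∈ Q1 := fun v hv => Subgroup.subset_closure ⟨v, hv, rfl⟩
  have hcyinv : ∀ v, y * cy v * y⁻¹ = (cy v)⁻¹ := fun v => by
    show y * (v⁻¹ * (y * v * y⁻¹)) * y⁻¹ = (v⁻¹ * (y * v * y⁻¹))⁻¹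
    rw [mul_inv_rev, inv_inv, mul_inv_rev, mul_inv_rev, inv_inv, hyi]
    calc y * (v⁻¹ * (y * v * y)) * y = y * v⁻¹ * y * v * (y * y) := by group
      _ = _ := by rw [hyy]; group
  -- square roots of the commutators
  have hroot : ∀ v ∈ Q, ∃ f ∈ Q1, f * f = cy v ∧ y * f * y⁻¹ = f⁻¹ := by
    intro v hv
    obtain ⟨e, he⟩ := hQ ⟨cy v, hcyQ v hv⟩
    obtain ⟨b, hb⟩ := ((hq.odd_of_ne_two hq2).pow : Odd (q ^ e))
    refine ⟨cy v ^ (b + 1), Q1.pow_mem (hcy1 v hv) _, ?_, ?_⟩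
    · rw [← pow_add, show b + 1 + (b + 1) = q ^ e + 1 by omega, pow_succ,
        show cy v ^ q ^ e = 1 from congrArg Subtype.val he, one_mul]
    · rw [← conj_pow, hcyinv, inv_pow]
  -- decomposition into fixed elements and `Q1`
  have hdecomp : ∀ v ∈ Q, ∃ g ∈ Q, y * g * y⁻¹ = g ∧ ∃ f ∈ Q1, v = g * f := by
    intro v hv
    obtain ⟨f, hf, hff, hfy⟩ := hroot v hv
    refine ⟨v * f, Q.mul_mem hv (hQ1Q hf), ?_, f⁻¹, Q1.inv_mem hf, (mul_inv_cancel_right _ _).symm⟩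
    calc y * (v * f) * y⁻¹ = (y * v * y⁻¹) * (y * f * y⁻¹) := by group
      _ = v * (f * f) * f⁻¹ := by rw [hfy, hff]; show _ = v * (v⁻¹ * (y * v * y⁻¹)) * f⁻¹; group
      _ = v * f := by group
  have hgen1 : Subgroup.closure ((fun v => v⁻¹ * (z ^ 2 ^ (m - 1) * v * (z ^ 2 ^ (m - 1))⁻¹)) '' (Q1 : Set G)) = Q1 := by
    refine le_antisymm ?_ ?_
    · rw [Subgroup.closure_le]
      rintro _ ⟨v, hv, rfl⟩
      exact hcy1 v (hQ1Q hv)
    · rw [hQ1, Subgroup.closure_le]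
      rintro _ ⟨v, hv, rfl⟩
      obtain ⟨f, hf, hff, hfy⟩ := hroot v hv
      refine Subgroup.subset_closure ⟨f⁻¹, Q1.inv_mem hf, ?_⟩
      show (f⁻¹)⁻¹ * (y * f⁻¹ * y⁻¹) = cy v
      rw [inv_inv, show y * f⁻¹ * y⁻¹ = (y * f * y⁻¹)⁻¹ by group, hfy, inv_inv, hff]
  have hzQ1 : z ∈ Subgroup.normalizer (Q1 : Set G) := by
    refine mem_normalizer_of_map ?_
    rw [hQ1, MonoidHom.map_closure]
    congr 1
    ext g
    have hg : ∀ v, z * cy v * z⁻¹ = cy (z * v * z⁻¹) := fun v => by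
      show z * (v⁻¹ * (y * v * y⁻¹)) * z⁻¹ = (z * v * z⁻¹)⁻¹ * (y * (z * v * z⁻¹) * y⁻¹)
      have h1 : y * z = z * y := hzy.symm.eq
      have h2 : z⁻¹ * y⁻¹ = y⁻¹ * z⁻¹ := by rw [← mul_inv_rev, ← mul_inv_rev, h1]
      calc z * (v⁻¹ * (y * v * y⁻¹)) * z⁻¹ = z * v⁻¹ * z⁻¹ * ((z * y) * v * (y⁻¹ * z⁻¹)) := by group
        _ = z * v⁻¹ * z⁻¹ * ((y * z) * v * (z⁻¹ * y⁻¹)) := by rw [h1, h2]
        _ = _ := by group
    constructor
    · rintro ⟨_, ⟨v, hv, rfl⟩, rfl⟩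
      exact ⟨z * v * z⁻¹, (Subgroup.mem_normalizer_iff.mp hzQ v).mp hv, (hg v).symm⟩
    · rintro ⟨v, hv, rfl⟩
      refine ⟨cy (z⁻¹ * v * z), ⟨z⁻¹ * v * z, ?_, rfl⟩, ?_⟩
      · refine (Subgroup.mem_normalizer_iff.mp hzQ _).mpr ?_
        rwa [show z * (z⁻¹ * v * z) * z⁻¹ = v by group]
      · show z * cy (z⁻¹ * v * z) * z⁻¹ = cy v
        rw [hg]; congr 1; group
  -- fixed elements commute with `Q1`
  have hgQ1 : ∀ g ∈ Q, y * g * y⁻¹ = g → ∀ t ∈ Q1, ρ g * ρ t = ρ t * ρ g := by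
    intro g hg hgy t ht
    rw [hQ1] at ht
    induction ht using Subgroup.closure_induction with
    | mem t ht =>
      obtain ⟨w, hw, rfl⟩ := ht
      exact commute_of_fixed hcomm hg (by rw [hgy]) hw
    | one => rw [map_one, one_mul, mul_one]
    | mul a b _ _ iha ihb => rw [map_mul, ← mul_assoc, iha, mul_assoc, ihb, ← mul_assoc]
    | inv a _ iha =>
      calc ρ g * ρ a⁻¹ = (ρ a⁻¹ * ρ a) * ρ g * ρ a⁻¹ := by rw [← map_mul ρ a⁻¹, inv_mul_cancel, map_one, one_mul]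
        _ = ρ a⁻¹ * (ρ g * ρ a) * ρ a⁻¹ := by rw [iha]; simp only [mul_assoc]
        _ = ρ a⁻¹ * ρ g := by
          rw [mul_assoc, mul_assoc, ← map_mul ρ a, mul_inv_cancel, map_one, mul_one]
  -- a stable simple subspace for `Q1`
  obtain ⟨W0, hW0⟩ := exists_simpleSub ρ Q1
  have hiso : IsoTo ρ Q1 W0 (W0.map (ρ z)) := by
    set A := W0.map (ρ z)
    have hA : SimpleSub ρ Q1 A := hW0.map hzQ1
    obtain ⟨C, hC, -, hdisj, hsup⟩ := exists_compl_sub (ρ := ρ) Q1 (card_ne_zero (hQ.to_le hQ1Q) hqK) hA.2.1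
      (fun _ _ _ _ => Submodule.mem_top : Inv ρ Q1 ⊤) le_top
    rw [sup_comm] at hsup
    obtain ⟨g, hg, hgy, hgC⟩ : ∃ g ∈ Q, y * g * y⁻¹ = g ∧ ¬ W0.map (ρ g) ≤ C := by
      by_contra hall
      push Not at hall
      let S : Submodule K V :=
        { carrier := {w | ∀ v ∈ Q, ρ v w ∈ C}
          zero_mem' := fun v _ => by rw [map_zero]; exact C.zero_mem
          add_mem' := fun {a b} ha hb v hv => by rw [map_add]; exact C.add_mem (ha v hv) (hb v hv)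
          smul_mem' := fun c a ha v hv => by rw [map_smul]; exact C.smul_mem c (ha v hv) }
      have hSinv : Inv ρ Q S := fun t ht w hw v hv => by rw [← rho_mul]; exact hw _ (Q.mul_mem hv ht)
      have hW0S : W0 ≤ S := by
        intro w hw v hv
        obtain ⟨g, hg, hgy, f, hf, rfl⟩ := hdecomp v hv
        rw [rho_mul]
        exact hall g hg hgy (Submodule.mem_map_of_mem (hW0.2.1 f hf w hw))
      rcases hirr S hSinv with h | h
      · exact hW0.1 (le_bot_iff.mp (h ▸ hW0S))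
      · apply hA.1
        have hCtop : C = ⊤ := top_le_iff.mp fun w _ => by
          have := (h.ge (Submodule.mem_top : w ∈ ⊤) : w ∈ S) 1 Q.one_mem
          rwa [map_one] at this
        have := disjoint_iff.mp hdisj
        rwa [hCtop, top_inf_eq] at this
    have h1 : IsoTo ρ Q1 W0 (W0.map (ρ g)) := by
      refine ⟨(ρ g).comp W0.subtype, (rho_injective g).comp W0.injective_subtype, ?_, fun t ht a _ => ?_⟩
      · rw [LinearMap.range_comp, Submodule.range_subtype]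
      · exact (LinearMap.congr_fun (hgQ1 g hg hgy t ht) (a : V))
    have hgs : SimpleSub ρ Q1 (W0.map (ρ g)) := by
      refine ⟨fun h => hW0.1 ?_, ?_, fun U hU hUi => ?_⟩
      · have h2 := congrArg (Submodule.map (ρ g⁻¹)) h
        rwa [map_map_rho, inv_mul_cancel, map_rho_one, Submodule.map_bot] at h2
      · rintro t ht _ ⟨w, hw, rfl⟩
        exact ⟨ρ t w, hW0.2.1 t ht w hw, LinearMap.congr_fun (hgQ1 g hg hgy t ht) w⟩
      · have hgy' : y * g⁻¹ * y⁻¹ = g⁻¹ := by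
          rw [show y * g⁻¹ * y⁻¹ = (y * g * y⁻¹)⁻¹ by group, hgy]
        have h2 : U.map (ρ g⁻¹) ≤ W0 := by
          rw [← map_rho_one (ρ := ρ) W0, ← inv_mul_cancel g, ← map_map_rho]
          exact Submodule.map_mono hU
        have h3 : Inv ρ Q1 (U.map (ρ g⁻¹)) := by
          rintro t ht _ ⟨w, hw, rfl⟩
          exact ⟨ρ t w, hUi t ht w hw, LinearMap.congr_fun (hgQ1 g⁻¹ (Q.inv_mem hg) hgy' t ht) w⟩
        rcases hW0.2.2 _ h2 h3 with h4 | h4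
        · left
          rw [← map_rho_one (ρ := ρ) U, ← mul_inv_cancel g, ← map_map_rho, h4, Submodule.map_bot]
        · right
          rw [← h4, map_map_rho, mul_inv_cancel, map_rho_one]
    exact h1.trans hW0.2.1 (isoTo_proj hA hgs hC hdisj.symm hsup hgC)
  obtain ⟨W1, hW1, hW1z⟩ := exists_stable hzQ1 hW0 hiso
  haveI : Nontrivial W1 := Submodule.nontrivial_iff_ne_bot.mpr hW1.1
  set H := stab ρ W1
  have hQH : Q1 ≤ H := inv_iff_le_stab.mp hW1.2.1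
  have hzH : z ∈ H := hW1z
  have hyH : y ∈ H := H.pow_mem hzH _
  have hInv : Inv ρ H W1 := fun g hg v hv => apply_mem_of_mem_stab hg hv
  set ρ1 := restr ρ H W1 hInv with hρ1
  set Q1H := Q1.subgroupOf H with hQ1H
  have hQ1p : IsPGroup q Q1H := (hQ.to_le hQ1Q).of_equiv (Subgroup.subgroupOfEquivOfLe hQH).symm
  have hirr1 : Irred ρ1 Q1H := by
    intro U hU
    rcases hW1.2.2 (U.map W1.subtype) (Submodule.map_subtype_le W1 U) (by
      rintro g hg _ ⟨w, hw, rfl⟩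
      exact ⟨_, hU ⟨g, hQH hg⟩ hg w hw, rfl⟩) with h | h
    · left
      refine Submodule.map_injective_of_injective W1.injective_subtype ?_
      rw [h, Submodule.map_bot]
    · right
      refine Submodule.map_injective_of_injective W1.injective_subtype ?_
      rw [h, Submodule.map_subtype_top]
  have hres : ∀ v : H, IsScalar ρ (v : G) → IsScalar ρ1 v := by
    rintro v ⟨s, hs⟩
    refine ⟨s, LinearMap.ext fun w => Subtype.ext ?_⟩
    rw [hρ1, restr_coe, hs]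
    rfl
  -- scalars on `W1` are scalars
  obtain ⟨w1, hw1, hw1ne⟩ := (Submodule.ne_bot_iff W1).mp hW1.1
  have hlift : ∀ v : H, (v : G) ∈ Q1 → IsScalar ρ1 v → IsScalar ρ (v : G) := by
    rintro ⟨a, haH⟩ ha ⟨s, hs⟩
    change a ∈ Q1 at ha
    have hsa : ∀ w ∈ W1, ρ a w = s • w := fun w hw => congrArg Subtype.val (LinearMap.congr_fun hs ⟨w, hw⟩)
    refine schur hirr _ fun v hv => ?_
    obtain ⟨g, hg, hgy, f, hf, rfl⟩ := hdecomp v hv
    have hfa : ρ f * ρ a = ρ a * ρ f := by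
      obtain ⟨t, ht⟩ := hcomm f (hQ1Q hf) a (hQ1Q ha)
      have h1 : ρ f (ρ a w1) = t • ρ a (ρ f w1) := by
        rw [← rho_mul, show f * a = f * a * f⁻¹ * a⁻¹ * (a * f) by group, rho_mul, ht, rho_mul]
        rfl
      rw [hsa w1 hw1, map_smul, hsa _ (hW1.2.1 f hf w1 hw1), smul_smul] at h1
      have hne : ρ f w1 ≠ 0 := fun h => hw1ne (rho_injective f (by rw [h, map_zero]))
      have h2 := smul_left_injective K hne h1
      have hs0 : s ≠ 0 := fun h => hw1ne (rho_injective a (by rw [hsa w1 hw1, h, zero_smul, map_zero]))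
      have ht1 : t = 1 := (mul_eq_right₀ hs0).mp h2.symm
      rw [← map_mul, show f * a = f * a * f⁻¹ * a⁻¹ * (a * f) by group, map_mul, ht, ht1, one_smul, one_mul,
        map_mul]
    show ρ (g * f) * ρ a = ρ a * ρ (g * f)
    rw [map_mul, mul_assoc, hfa, ← mul_assoc, hgQ1 g hg hgy a ha, mul_assoc]
  have hzQ1' : (⟨z, hzH⟩ : H) ∈ Subgroup.normalizer (Q1H : Set H) := by
    rw [Subgroup.mem_normalizer_iff]
    exact fun h => Subgroup.mem_normalizer_iff.mp hzQ1 (h : G)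
  have hgenH : Subgroup.closure ((fun v => v⁻¹ * ((⟨z, hzH⟩ : H) ^ 2 ^ (m - 1) * v *
      ((⟨z, hzH⟩ : H) ^ 2 ^ (m - 1))⁻¹)) '' (Q1H : Set H)) = Q1H := by
    refine Subgroup.map_injective H.subtype_injective ?_
    rw [MonoidHom.map_closure, hQ1H, Subgroup.map_subgroupOf_eq_of_le hQH]
    refine Eq.trans ?_ hgen1
    congr 1
    ext g
    constructor
    · rintro ⟨_, ⟨v, hv, rfl⟩, rfl⟩
      exact ⟨(v : G), hv, rfl⟩
    · rintro ⟨v, hv, rfl⟩
      exact ⟨_, ⟨⟨v, hQH hv⟩, hv, rfl⟩, rfl⟩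
  have hcomm1 : ∀ v ∈ Q1H, ∀ w ∈ Q1H, IsScalar ρ1 (v * w * v⁻¹ * w⁻¹) := fun v hv w hw =>
    hres _ (hcomm _ (hQ1Q hv) _ (hQ1Q hw))
  haveI : Fact (Nat.Prime 2) := ⟨Nat.prime_two⟩
  have hqK1 : (Nat.card Q1H : K) ≠ 0 := card_ne_zero hQ1p hqK
  have hQK : (Nat.card Q : K) ≠ 0 := card_ne_zero hQ hqK
  have hexc1 : (ρ1 ⟨z, hzH⟩ - 1) ^ (2 ^ m - 1) = 0 := LinearMap.ext fun w => Subtype.ext (by
    rw [hρ1, rho_pow_sub_one_restr, hexc]; rfl)
  have hclass : ∀ v : H, v ∈ Q1H → IsScalar ρ1 (v⁻¹ * ((⟨z, hzH⟩ : H) ^ 2 ^ (m - 1) * v *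
      ((⟨z, hzH⟩ : H) ^ 2 ^ (m - 1))⁻¹)) → IsScalar ρ1 v := by
    intro v hv hsc
    have hy2' : ((⟨z, hzH⟩ : H) ^ 2 ^ (m - 1)) ^ 2 = 1 := Subtype.ext hy2
    have hfix' := fixed_of_scalar hQ1p hq2 (Subgroup.pow_mem _ hzQ1' _) hy2' hv hsc
    refine schur hirr1 (ρ1 v) fun t ht => ?_
    rw [← hgenH] at ht
    induction ht using Subgroup.closure_induction with
    | mem z hz =>
      obtain ⟨w, hw, rfl⟩ := hz
      exact (commute_of_fixed hcomm1 hv hfix' hw).symm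
    | one => rw [map_one, one_mul, mul_one]
    | mul a b _ _ iha ihb => rw [map_mul, mul_assoc, ihb, ← mul_assoc, iha, mul_assoc]
    | inv a _ iha =>
      calc ρ1 a⁻¹ * ρ1 v = ρ1 a⁻¹ * ρ1 v * (ρ1 a * ρ1 a⁻¹) := by
            rw [← map_mul ρ1 a, mul_inv_cancel, map_one, mul_one]
        _ = ρ1 a⁻¹ * (ρ1 v * ρ1 a) * ρ1 a⁻¹ := by simp only [mul_assoc]
        _ = ρ1 v * ρ1 a⁻¹ := by
          rw [← iha, ← mul_assoc (ρ1 a⁻¹), ← map_mul ρ1 a⁻¹ a, inv_mul_cancel, map_one, one_mul]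
  obtain ⟨hb1, hb2, hb3⟩ := dim_bounds_of_free (p := 2) ρ1 Q1H (scalarsIn ρ1 Q1H) hqK1 hirr1
    (fun t ht => (mem_scalarsIn.mp ht).1) (fun a ha b hb => by
      rw [commutatorElement_def]; exact hcomm1 a ha b hb)
    (fun t ht => (mem_scalarsIn.mp ht).2) (fun t ht h => mem_scalarsIn_of_commute hirr1 ht h)
    (⟨z, hzH⟩ : H) hzQ1' (m := m) (r := 2 ^ m - 1) (Subtype.ext hzN) hexc1 fun t ht hty =>
      mem_scalarsIn.mpr ⟨ht, hclass t ht ((commutator_scalar_iff hcomm1 (Subgroup.pow_mem _ hzQ1' _) ht).mp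
        (mem_scalarsIn.mp hty).2)⟩
  have hD2 : 2 ≤ Module.finrank K W1 := by
    by_contra hlt
    have h1 : Module.finrank K W1 = 1 := by
      have := Module.finrank_pos (R := K) (M := W1); omega
    obtain ⟨v, hv, hvne⟩ := hmoved
    apply hvne
    have he1 : cy v ∈ Q1 := hcy1 v hv
    refine hlift ⟨cy v, hQH he1⟩ he1 ⟨1, ?_⟩
    have h2 : ρ1 ((⟨y, hyH⟩ : H) * ⟨cy v, hQH he1⟩ * (⟨y, hyH⟩ : H)⁻¹) = ρ1 ⟨cy v, hQH he1⟩ := by
      rw [map_mul, map_mul, commute_of_finrank_one h1, ← mul_assoc, ← map_mul ρ1 (⟨y, hyH⟩ : H)⁻¹,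
        inv_mul_cancel, map_one, one_mul]
    rw [show (⟨y, hyH⟩ : H) * ⟨cy v, hQH he1⟩ * (⟨y, hyH⟩ : H)⁻¹ = (⟨cy v, hQH he1⟩ : H)⁻¹ from
      Subtype.ext (hcyinv v)] at h2
    have h3 : ρ1 (⟨cy v, hQH he1⟩ : H) ^ 2 = 1 := by
      rw [sq]
      nth_rw 1 [← h2]
      rw [← map_mul, inv_mul_cancel, map_one]
    obtain ⟨e, he⟩ := hQ ⟨cy v, hcyQ v hv⟩
    have h4 : ρ1 (⟨cy v, hQH he1⟩ : H) ^ q ^ e = 1 := by
      rw [← map_pow, show (⟨cy v, hQH he1⟩ : H) ^ q ^ e = 1 from Subtype.ext (congrArg Subtype.val he :), map_one]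
    have h5 := pow_gcd_eq_one.mpr ⟨h3, h4⟩
    rw [show Nat.gcd 2 (q ^ e) = 1 from
      Nat.Coprime.pow_right e ((Nat.coprime_primes Nat.prime_two hq).mpr hq2.symm), pow_one] at h5
    rw [h5, one_smul]
  obtain ⟨N0, hN0⟩ : ∃ N0, 2 ^ m = N0 + 1 := ⟨2 ^ m - 1, by have := Nat.two_pow_pos m; omega⟩
  rw [hN0, Nat.add_sub_cancel] at hb1 hb2
  set D := Module.finrank K W1 with hDdef
  set nB := (scalarsIn ρ1 Q1H).relIndex Q1H with hnBdef
  have hDN : D = N0 := by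
    refine le_antisymm ?_ ?_
    · by_contra hlt
      nlinarith
    · by_contra hlt
      nlinarith
  obtain ⟨j, hj⟩ := finrank_eq_prime_pow ρ1 Q1H hQ1p hirr1
  obtain ⟨rfl, -⟩ := exponent_one (m := m) hq hq2 (j := j) (by rw [← hj]; exact hD2) (by rw [← hj, ← hDdef, hDN, hN0])
  rw [pow_one] at hj
  have hqm : q + 1 = 2 ^ m := by rw [hN0, ← hDN, hDdef, hj]
  have hDq : N0 = q := hDN.symm.trans hj
  rw [hDN, hDq] at hb1 hb2 hb3
  have hnB : q ^ 2 ≤ nB := by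
    have := hq.pos
    nlinarith
  refine ⟨hqm, ?_⟩
  -- the elements fixed by the involution up to scalars
  set F := fixMod ρ Q hyQ hcomm with hF
  set R := F.map Q.subtype with hRdef
  have hRmem : ∀ t ∈ Q, IsScalar ρ ⁅y, t⁆ → t ∈ R := fun t ht h =>
    ⟨⟨t, ht⟩, mem_fixMod.mpr ((commutator_scalar_iff hcomm hyQ ht).mp h), rfl⟩
  have hRQ : R ≤ Q := Subgroup.map_subtype_le F
  have hRcard : Nat.card (R ⊓ Q : Subgroup G) = Nat.card R := by rw [inf_eq_left.mpr hRQ]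
  have hcardQ : Nat.card Q = R.relIndex Q * Nat.card R := by
    rw [← (R.subgroupOf Q).index_mul_card, Nat.card_congr (Subgroup.subgroupOfEquivOfLe hRQ).toEquiv]
    rfl
  have hcomQ : ∀ a ∈ Q, ∀ b ∈ Q, IsScalar ρ ⁅a, b⁆ := fun a ha b hb => by
    rw [commutatorElement_def]; exact hcomm a ha b hb
  have hlow : q ^ 2 ≤ R.relIndex Q := by
    refine le_trans ?_ (Subgroup.relIndex_le_of_le_right hQ1Q Subgroup.index_ne_zero_of_finite)
    refine le_trans hnB ?_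
    have h1 : nB = ((scalarsIn ρ1 Q1H).map H.subtype).relIndex Q1 := by
      rw [hnBdef, ← Subgroup.relIndex_map_map_of_injective _ _ H.subtype_injective, hQ1H,
        Subgroup.map_subgroupOf_eq_of_le hQH]
    rw [h1]
    refine Nat.le_of_dvd (Nat.pos_of_ne_zero Subgroup.index_ne_zero_of_finite) ?_
    rw [← Subgroup.inf_relIndex_right R Q1]
    refine Subgroup.relIndex_dvd_of_le_left _ ?_
    intro t ht
    obtain ⟨⟨v, hv⟩, htQ1⟩ := ht
    obtain ⟨hv1, hv2⟩ := hv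
    have hmem := mem_fixMod.mp hv1
    subst hv2
    refine ⟨⟨(v : G), hQH htQ1⟩, mem_scalarsIn.mpr ⟨htQ1, ?_⟩, rfl⟩
    exact hclass ⟨(v : G), hQH htQ1⟩ htQ1 (hres _ hmem)
  have hup : R.relIndex Q ≤ q ^ 2 := by
    have h := card_le_of_classTwo (p := 2) ρ Q (scalarsIn ρ Q) R hQK hirr (fun t ht => (mem_scalarsIn.mp ht).1)
      hcomQ (fun t ht => (mem_scalarsIn.mp ht).2) (fun t ht h => mem_scalarsIn_of_commute hirr ht h) z hzQ
      (m := m) (r := 2 ^ m - 1) hzN hexc fun t ht hty => hRmem t ht (mem_scalarsIn.mp hty).2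
    rw [← hqm, Nat.add_sub_cancel, Nat.add_sub_cancel_left, mul_one, hRcard, hcardQ, ← sq] at h
    exact Nat.le_of_mul_le_mul_right h Nat.card_pos
  refine ⟨R, hRQ, hup, fun t ht => ?_⟩
  by_contra hne
  obtain ⟨v, hv, rfl⟩ := ht
  have h := card_le_of_moved (p := 2) ρ Q (scalarsIn ρ Q) R hQK hirr (fun t ht => (mem_scalarsIn.mp ht).1)
    hcomQ (fun t ht => (mem_scalarsIn.mp ht).2) (fun t ht h => mem_scalarsIn_of_commute hirr ht h) z hzQ
    (m := m) (r := 2 ^ m - 1) hzN hexc (fun t ht hty => hRmem t ht (mem_scalarsIn.mp hty).2)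
    ⟨v, v.2, mem_scalarsIn.mpr ⟨?_, (commutator_scalar_iff hcomm hyQ v.2).mpr (mem_fixMod.mp hv)⟩,
      fun h => hne (mem_scalarsIn.mp h).2⟩ (Nat.sub_lt (Nat.two_pow_pos m) one_pos)
  · rw [← hqm, Nat.add_sub_cancel, Nat.add_sub_cancel_left, mul_one, hRcard, hcardQ, ← sq] at h
    have := Nat.mul_le_mul_right (Nat.card R) hlow
    omega
  · rw [commutatorElement_def]
    exact Q.mul_mem ((Subgroup.mem_normalizer_iff.mp hyQ _).mp v.2) (Q.inv_mem v.2)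

end Cfsg.Agent.Lib.TwoLength
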