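import Cfsg.Agent.Lib.TwoLength.Plane
import Cfsg.Agent.Lib.TwoPowerFPF.Displacement
import Cfsg.Agent.Lib.Hall.Solvable
import Mathlib.NumberTheory.LegendreSymbol.Basic

set_option autoImplicit false
set_option linter.unusedSectionVars false
set_option linter.style.haveILetI false

/-!
A solvable linear group over `ZMod q`: the squares of plane elements generate a group which is a `2`-group
modulo unipotent elements.
-/

namespace Cfsg.Agent.Lib.TwoLength

open Cfsg
open scoped commutatorElement

universe u v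

/-- The subgroup generated by the elements of odd order in the group generated by `U`. -/
def oddPart {G : Type*} [Group G] (U : Set G) : Subgroup G :=
  Subgroup.closure {g | g ∈ Subgroup.closure U ∧ Odd (orderOf g)}

/-- `u` is trivial or the top of an element of order `q + 1` moving at most a plane. -/
def IsPlaneTop {G : Type*} [Group G] {q : ℕ} {E : Type*} [AddCommGroup E] [Module (ZMod q) E]
    (φ : G →* Module.End (ZMod q) E) (u : G) : Prop :=
  φ u = 1 ∨ ∃ (z : G) (m : ℕ), q + 1 = 2 ^ m ∧ z ^ 2 ^ m = 1 ∧ u = z ^ 2 ^ (m - 1) ∧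
    Module.finrank (ZMod q) (LinearMap.range (φ z - 1)) ≤ 2

theorem eq_one_of_coprime_pow {G : Type*} [Monoid G] {x : G} {a b : ℕ} (ha : x ^ a = 1) (hb : x ^ b = 1)
    (h : a.Coprime b) : x = 1 := by
  have := pow_gcd_eq_one.mpr ⟨ha, hb⟩
  rwa [Nat.Coprime.gcd_eq_one h, pow_one] at this

/-- An odd element in the product with a normal subgroup whose elements have `2`-power order lies in the other. -/
theorem mem_of_sup_two {G : Type*} [Group G] {T D : Subgroup G} [D.Normal] (hT : IsPGroup 2 T) {g : G}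
    (hg : g ∈ T ⊔ D) (hodd : Odd (orderOf g)) : g ∈ D := by
  obtain ⟨t, ht, d, hd, rfl⟩ := Subgroup.mem_sup_of_normal_right.mp hg
  obtain ⟨i, hi⟩ := hT ⟨t, ht⟩
  rw [← QuotientGroup.eq_one_iff]
  refine eq_one_of_coprime_pow (a := 2 ^ i) (b := orderOf (t * d)) ?_ ?_ (hodd.coprime_two_left.pow_left i)
  · rw [QuotientGroup.mk_mul, (QuotientGroup.eq_one_iff d).mpr hd, mul_one, ← QuotientGroup.mk_pow,
      show t ^ 2 ^ i = 1 from congrArg Subtype.val hi, QuotientGroup.mk_one]
  · rw [← QuotientGroup.mk_pow, pow_orderOf_eq_one, QuotientGroup.mk_one]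

variable {q : ℕ} [Fact q.Prime]

theorem no_sqrt_neg_one {m : ℕ} (hqm : q + 1 = 2 ^ m) : 2 ≤ m ∧ (2 : ZMod q) ≠ 0 ∧ ∀ c : ZMod q, c * c ≠ -1 := by
  have hq : q.Prime := Fact.out
  have hm : 2 ≤ m := by
    by_contra h
    have := hq.two_le
    have : m = 0 ∨ m = 1 := by omega
    rcases this with rfl | rfl <;> omega
  have h4 : 4 ∣ q + 1 := hqm ▸ (pow_dvd_pow 2 hm : 2 ^ 2 ∣ 2 ^ m)
  refine ⟨hm, fun h => ?_, fun c hc => ?_⟩
  · have h1 : ((2 : ℕ) : ZMod q) = 0 := by exact_mod_cast h
    have h2 := (ZMod.natCast_eq_zero_iff 2 q).mp h1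
    have := Nat.le_of_dvd two_pos h2
    have := hq.two_le
    omega
  · exact ZMod.exists_sq_eq_neg_one_iff.mp ⟨c, hc.symm⟩ (by omega)

/-- In a faithful irreducible solvable group the tops lie in the `2`-core. -/
theorem mem_pCore_two_of_irreducible {G : Type u} [Group G] [Finite G] [Group.IsSolvable G] {E : Type v}
    [AddCommGroup E] [Module (ZMod q) E] [FiniteDimensional (ZMod q) E] (φ : G →* Module.End (ZMod q) E)
    (hφ : Function.Injective φ)
    (hirr : ∀ W : Submodule (ZMod q) E, (∀ g, ∀ v ∈ W, φ g v ∈ W) → W = ⊥ ∨ W = ⊤)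
    {u : G} (hu : IsPlaneTop φ u) : u ∈ pCore 2 G := by
  classical
  rcases hu with h | ⟨z, m, hqm, hzN, hu, hrank⟩
  · rw [hφ (h.trans (map_one φ).symm)]; exact one_mem _
  rcases eq_or_ne u 1 with hu1 | hu1
  · rw [hu1]; exact one_mem _
  obtain ⟨hm, h2, hi⟩ := no_sqrt_neg_one hqm
  haveI : Fact (Nat.Prime 2) := ⟨Nat.prime_two⟩
  haveI : Finite E := Module.finite_of_finite (ZMod q)
  have hq : q.Prime := Fact.out
  have hq2 : q ≠ 2 := by rintro rfl; exact h2 rfl
  haveI hTn : (pCore 2 G).Normal := Cfsg.pCore_normal 2 G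
  have hT2 : IsPGroup 2 (pCore 2 G) := Components.pCore_isPGroup 2
  -- no unipotent core
  have hqcore : pCore q G = ⊥ := by
    by_contra hne
    haveI : (pCore q G).Normal := Cfsg.pCore_normal q G
    let W : Submodule (ZMod q) E :=
      { carrier := {v | ∀ a ∈ pCore q G, φ a v = v}
        zero_mem' := fun a _ => map_zero _
        add_mem' := fun {x y} hx hy a ha => by rw [map_add, hx a ha, hy a ha]
        smul_mem' := fun c x hx a ha => by rw [map_smul, hx a ha] }
    have hW : ∀ g, ∀ v ∈ W, φ g v ∈ W := by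
      intro g v hv a ha
      have hmem : g⁻¹ * a * g ∈ pCore q G := by
        have h0 := (inferInstance : (pCore q G).Normal).conj_mem a ha g⁻¹
        rwa [inv_inv] at h0
      have h1 := congrArg (φ g) (hv (g⁻¹ * a * g) hmem)
      rw [← Module.End.mul_apply, ← map_mul, show g * (g⁻¹ * a * g) = a * g by group, map_mul] at h1
      exact h1
    rcases hirr W hW with h | h
    · rcases subsingleton_or_nontrivial E with hs | hs
      · exact hne ((Subgroup.eq_bot_iff_forall _).mpr fun a _ =>
          hφ (LinearMap.ext fun v => Subsingleton.elim _ _))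
      letI act : MulAction (pCore q G) E :=
        { smul := fun a v => φ (a : G) v
          one_smul := fun v => by show φ _ v = v; rw [OneMemClass.coe_one, map_one]; rfl
          mul_smul := fun a b v => by show φ _ v = φ _ (φ _ v); rw [Subgroup.coe_mul, map_mul]; rfl }
      have hdvd : q ∣ Nat.card E := by
        rw [Module.natCard_eq_pow_finrank (K := ZMod q), Nat.card_zmod]
        exact dvd_pow_self q Module.finrank_pos.ne'
      obtain ⟨b, hb, hb0⟩ := (Components.pCore_isPGroup q :
        IsPGroup q (pCore q G)).exists_fixed_point_of_prime_dvd_card_of_fixed_point E hdvd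
        (a := (0 : E)) (fun a => map_zero _)
      have hbW : b ∈ W := fun a ha => hb ⟨a, ha⟩
      rw [h, Submodule.mem_bot] at hbW
      exact hb0 hbW.symm
    · exact hne ((Subgroup.eq_bot_iff_forall _).mpr fun a ha => hφ (LinearMap.ext fun v => by
        rw [map_one]; exact (h.ge (Submodule.mem_top : v ∈ ⊤) : v ∈ W) a ha))
  -- `u` centralises the odd cores
  have hodd : ∀ r : Nat.Primes, (r : ℕ) ≠ 2 → ∀ a ∈ pCore (r : ℕ) G, u * a = a * u := by
    intro r hr2 a ha
    haveI : Fact (Nat.Prime (r : ℕ)) := ⟨r.2⟩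
    by_cases hrq : (r : ℕ) = q
    · rw [hrq, hqcore, Subgroup.mem_bot] at ha
      rw [ha, mul_one, one_mul]
    haveI : (pCore (r : ℕ) G).Normal := Cfsg.pCore_normal _ G
    let X := Multiplicative E
    let ψ : G →* MulAut X :=
      { toFun := fun g => AddEquiv.toMultiplicative
          { toFun := φ g
            invFun := φ g⁻¹
            left_inv := fun v => by rw [← Module.End.mul_apply, ← map_mul, inv_mul_cancel, map_one]; rfl
            right_inv := fun v => by rw [← Module.End.mul_apply, ← map_mul, mul_inv_cancel, map_one]; rfl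
            map_add' := map_add (φ g) }
        map_one' := MulEquiv.ext fun v => by
          show Multiplicative.ofAdd (φ 1 v.toAdd) = v
          rw [map_one]; rfl
        map_mul' := fun g h => MulEquiv.ext fun v => by
          show Multiplicative.ofAdd (φ (g * h) v.toAdd) = Multiplicative.ofAdd (φ g (φ h v.toAdd))
          rw [map_mul]; rfl }
    have hψ : Function.Injective ψ := fun g h e => hφ (LinearMap.ext fun v =>
      congrArg Multiplicative.toAdd (DFunLike.congr_fun e (Multiplicative.ofAdd v)))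
    have hX : IsPGroup q X := IsPGroup.of_card (n := Module.finrank (ZMod q) E) (by
      rw [Nat.card_congr Multiplicative.toAdd, Module.natCard_eq_pow_finrank (K := ZMod q), Nat.card_zmod])
    have hdisp : (Set.range fun t : X => ψ z t / t).ncard ≤ q ^ 2 := by
      rw [← Nat.card_coe_set_eq]
      refine le_trans (Nat.card_le_card_of_injective
        (fun t : Set.range (fun t : X => ψ z t / t) =>
          (⟨(t : X).toAdd, by
            obtain ⟨s, hs⟩ := t.2
            exact ⟨s.toAdd, by rw [← hs]; rfl⟩⟩ : LinearMap.range (φ z - 1)))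
        (fun a b hab => Subtype.ext (Multiplicative.toAdd.injective (congrArg Subtype.val hab :)))) ?_
      rw [Module.natCard_eq_pow_finrank (K := ZMod q), Nat.card_zmod]
      exact Nat.pow_le_pow_right hq.pos hrank
    have hzR : ψ z ∈ Subgroup.normalizer (((pCore (r : ℕ) G).map ψ : Subgroup (MulAut X)) : Set (MulAut X)) := by
      refine Subgroup.le_normalizer_map ψ ⟨z, ?_, rfl⟩
      rw [SetLike.mem_coe, Subgroup.normalizer_eq_top (H := pCore (r : ℕ) G)]
      exact Subgroup.mem_top z
    have h := TwoPowerFPF.commute_of_displacement hq2 hr2 hrq hX _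
      ((Components.pCore_isPGroup (r : ℕ) : IsPGroup (r : ℕ) (pCore (r : ℕ) G)).map ψ) (ψ z) hzR hqm
      (by rw [← map_pow, hzN, map_one]) hdisp (ψ a) ⟨a, ha, rfl⟩
    rw [← map_pow, ← hu, ← map_inv, ← map_mul, ← map_mul] at h
    exact mul_inv_eq_iff_eq_mul.mp (hψ h)
  -- `u` centralises the Frattini quotient of the `2`-core
  set s := z ^ 2 ^ (m - 2) with hs
  have hus : u = s * s := by
    rw [hu, hs, ← pow_add, ← two_mul, ← pow_succ']
    congr 2; omega
  have hrange : LinearMap.range (φ s - 1) ≤ LinearMap.range (φ z - 1) := by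
    rw [hs, map_pow, ← mul_geom_sum, Module.End.mul_eq_comp]
    exact LinearMap.range_comp_le_range _ _
  have hplane : IsPlane (φ s) := by
    refine ⟨?_, fun h => hu1 (hφ ?_), (Submodule.finrank_mono hrange).trans hrank⟩
    · rw [← map_mul, ← map_mul, ← hus, hu, ← pow_add, ← two_mul, ← pow_succ',
        Nat.sub_add_cancel (by omega), hzN, map_one]
    · rw [hus, map_mul, h, map_one]
  set P := pCore 2 G ⊔ Subgroup.zpowers z
  have hP : IsPGroup 2 P := hT2.to_sup_of_normal_left (by
    obtain ⟨i, -, hi'⟩ := (Nat.dvd_prime_pow Nat.prime_two).mp (orderOf_dvd_of_pow_eq_one hzN)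
    exact IsPGroup.of_card (n := i) (by rw [Nat.card_zpowers, hi']))
  have hfrat : ∀ t ∈ pCore 2 G, ⁅t, u⁆ ∈ (frattini (pCore 2 G)).map (pCore 2 G).subtype := by
    intro t ht
    have hsP : s ∈ P := Subgroup.mem_sup_right (Subgroup.pow_mem _ (Subgroup.mem_zpowers z) _)
    rw [hus]
    rcases commutator_sq h2 hi φ P hP hsP (Subgroup.mem_sup_left ht) hplane with h | h
    · rw [hφ (h.trans (map_one φ).symm)]; exact one_mem _
    · rw [hφ h]
      have hts : ⁅t, s⁆ ∈ pCore 2 G := by
        rw [commutatorElement_def, mul_assoc, mul_assoc, ← mul_assoc s]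
        exact mul_mem ht (hTn.conj_mem _ (inv_mem ht) s)
      exact ⟨⟨_, hts⟩ ^ 2, PGroupFrattini.pow_mem_frattini hT2 _, sq ⁅t, s⁆⟩
  obtain ⟨V1, i1, i2, i3, π, ρT, hπs, hπadd, hπ0, hρT⟩ := HallHigman.exists_frattiniModule (pCore 2 G) hT2
  have hπsub : ∀ a b, π (a * b⁻¹) + π b = π a := fun a b => by rw [← hπadd, inv_mul_cancel_right]
  have hkerT : ∀ g : G, g ∈ ρT.ker ↔ ∀ a : pCore 2 G, MulAut.conjNormal g a * a⁻¹ ∈ frattini (pCore 2 G) := by
    intro g
    constructor
    · intro h a
      rw [← hπ0]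
      have h2' := hρT g a
      rw [MonoidHom.mem_ker.mp h, Module.End.one_apply] at h2'
      have h3 := hπsub (MulAut.conjNormal g a) a
      rw [← h2'] at h3
      exact left_eq_add.mp ((add_comm _ _).trans h3).symm
    · intro h
      refine MonoidHom.mem_ker.mpr (LinearMap.ext fun v => ?_)
      obtain ⟨a, rfl⟩ := hπs v
      rw [hρT, ← hπsub (MulAut.conjNormal g a) a, (hπ0 _).mpr (h a), zero_add, Module.End.one_apply]
  let D : Subgroup G := ⨆ r : {r : Nat.Primes // (r : ℕ) ≠ 2}, pCore ((r : Nat.Primes) : ℕ) G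
  haveI : ∀ r : {r : Nat.Primes // (r : ℕ) ≠ 2}, (pCore ((r : Nat.Primes) : ℕ) G).Normal :=
    fun r => Cfsg.pCore_normal _ G
  haveI hDn : D.Normal := Subgroup.iSup_normal _
  haveI : (Subgroup.centralizer (D : Set G)).Normal := inferInstance
  let C0 : Subgroup G := Subgroup.centralizer (D : Set G) ⊓ ρT.ker
  have huC : u ∈ C0 := by
    refine ⟨?_, (hkerT u).mpr fun a => ?_⟩
    · have hle : D ≤ Subgroup.centralizer ({u} : Set G) := iSup_le fun r a ha =>
        Subgroup.mem_centralizer_singleton_iff.mpr (hodd r.1 r.2 a ha).symm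
      exact Subgroup.mem_centralizer_iff.mpr fun d hd => Subgroup.mem_centralizer_singleton_iff.mp (hle hd)
    · obtain ⟨b, hb, hb'⟩ := hfrat (a : G) a.2
      have : MulAut.conjNormal u a * a⁻¹ = b⁻¹ := Subtype.ext (by
        rw [Subgroup.coe_mul, MulAut.conjNormal_apply, InvMemClass.coe_inv, InvMemClass.coe_inv,
          show (b : G) = ⁅(a : G), u⁆ from hb', commutatorElement_def]
        group)
      rw [this]
      exact inv_mem hb
  have hF : fittingSubgroup G ≤ pCore 2 G ⊔ D := by
    rw [Hall.fittingSubgroup_eq_iSup_pCore]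
    refine iSup_le fun r => ?_
    by_cases h : (r : ℕ) = 2
    · rw [h]; exact le_sup_left
    · exact le_sup_of_le_right (le_iSup (fun r : {r : Nat.Primes // (r : ℕ) ≠ 2} =>
        pCore ((r : Nat.Primes) : ℕ) G) ⟨r, h⟩)
  -- odd elements of `C0` lie in the odd cores
  have hC0odd : ∀ g ∈ C0, Odd (orderOf g) → g ∈ D := by
    intro g hg hgodd
    refine mem_of_sup_two hT2 (hF (Hall.centralizer_fittingSubgroup_le ?_)) hgodd
    have hcT : g ∈ Subgroup.centralizer (pCore 2 G : Set G) := by
      have hA : Subgroup.zpowers g ≤ Subgroup.normalizer (pCore 2 G : Set G) := by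
        rw [Subgroup.normalizer_eq_top (H := pCore 2 G)]; exact le_top
      refine Coprime.le_centralizer_of_frattini hA ?_ ?_ (Subgroup.mem_zpowers g)
      · obtain ⟨e, he⟩ := IsPGroup.iff_card.mp (hT2.to_subgroup (frattini (pCore 2 G)))
        rw [Nat.card_zpowers, he]
        exact hgodd.coprime_two_right.pow_right e
      · intro a ha k hk
        exact ⟨_, (hkerT a).mp (Subgroup.zpowers_le.mpr hg.2 ha) ⟨k, hk⟩, rfl⟩
    refine Subgroup.mem_centralizer_iff.mpr fun f hf => ?_
    obtain ⟨t, ht, d, hd, rfl⟩ := Subgroup.mem_sup_of_normal_right.mp (hF hf)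
    rw [mul_assoc, Subgroup.mem_centralizer_iff.mp hg.1 d hd, ← mul_assoc,
      Subgroup.mem_centralizer_iff.mp hcT t ht, mul_assoc]
  have hC0nil : Group.IsNilpotent C0 := by
    refine Group.of_quotient_center_nilpotent ?_
    refine IsPGroup.isNilpotent (p := 2) fun w => ?_
    obtain ⟨c, rfl⟩ := QuotientGroup.mk_surjective w
    obtain ⟨i, b, hb, hib⟩ := Nat.exists_eq_pow_mul_and_not_dvd (n := orderOf (c : G)) (orderOf_pos _).ne' 2
      (by norm_num)
    refine ⟨i, ?_⟩
    rw [← QuotientGroup.mk_pow, QuotientGroup.eq_one_iff, Subgroup.mem_center_iff]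
    intro e
    refine Subtype.ext ?_
    have hord : Odd (orderOf ((c : G) ^ 2 ^ i)) := by
      refine Odd.of_dvd_nat (Nat.odd_iff.mpr (Nat.two_dvd_ne_zero.mp hb)) (orderOf_dvd_of_pow_eq_one ?_)
      rw [← pow_mul, ← hib, pow_orderOf_eq_one]
    exact (Subgroup.mem_centralizer_iff.mp e.2.1 _ (hC0odd _ (C0.pow_mem c.2 _) hord)).symm
  have huF : u ∈ pCore 2 G ⊔ D := hF (Hall.le_fittingSubgroup hC0nil huC)
  obtain ⟨t, ht, d, hd, htd⟩ := Subgroup.mem_sup_of_normal_left.mp huF
  have hdodd : ∃ N, Odd N ∧ d ^ N = 1 := by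
    have hle : D ≤ pPrimeCore 2 G := iSup_le fun r => by
      haveI : Fact (Nat.Prime ((r : Nat.Primes) : ℕ)) := ⟨r.1.2⟩
      obtain ⟨e, he⟩ := IsPGroup.iff_card.mp (Components.pCore_isPGroup ((r : Nat.Primes) : ℕ) :
        IsPGroup _ (pCore ((r : Nat.Primes) : ℕ) G))
      refine Components.le_pPrimeCore ?_
      rw [he]
      exact ((Nat.coprime_primes r.1.2 Nat.prime_two).mpr r.2).pow_left e
    exact ⟨Nat.card (pPrimeCore 2 G),
      Nat.coprime_two_right.mp (Components.pPrimeCore_coprime 2),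
      congrArg Subtype.val (pow_card_eq_one' (x := (⟨d, hle hd⟩ : pPrimeCore 2 G)))⟩
  obtain ⟨N, hN, hdN⟩ := hdodd
  rw [← QuotientGroup.eq_one_iff]
  refine eq_one_of_coprime_pow (a := 2 ^ m) (b := N) ?_ ?_ (hN.coprime_two_left.pow_left m)
  · rw [← QuotientGroup.mk_pow, hu, ← pow_mul, mul_comm, pow_mul, hzN, one_pow, QuotientGroup.mk_one]
  · rw [← htd, QuotientGroup.mk_mul, (QuotientGroup.eq_one_iff t).mpr ht, one_mul, ← QuotientGroup.mk_pow, hdN,
      QuotientGroup.mk_one]

/-- The odd part of the group generated by the tops acts as a `q`-group. -/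
theorem exists_pow_eq_one {G : Type u} [Group G] [Finite G] [Group.IsSolvable G] (U : Set G) (d : ℕ) :
    ∀ (E : Type v) [AddCommGroup E] [Module (ZMod q) E] [FiniteDimensional (ZMod q) E]
      (φ : G →* Module.End (ZMod q) E), Module.finrank (ZMod q) E = d → (∀ u ∈ U, IsPlaneTop φ u) →
      ∀ ω ∈ oddPart U, ∃ k, φ ω ^ q ^ k = 1 := by
  induction d using Nat.strong_induction_on with
  | _ d ih =>
  intro E _ _ _ φ hd hU ω hω
  classical
  have hq : q.Prime := Fact.out
  by_cases hirr : ∀ W : Submodule (ZMod q) E, (∀ g, ∀ v ∈ W, φ g v ∈ W) → W = ⊥ ∨ W = ⊤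
  · refine ⟨0, ?_⟩
    rw [pow_zero, pow_one]
    let ψ := φ.toHomUnits
    let φD : ψ.range →* Module.End (ZMod q) E := (Units.coeHom _).comp ψ.range.subtype
    have hφD : Function.Injective φD := Units.val_injective.comp Subtype.val_injective
    haveI : Finite ψ.range := Finite.of_surjective _ ψ.rangeRestrict_surjective
    haveI : Group.IsSolvable ψ.range := Group.isSolvable_of_surjective ψ.rangeRestrict_surjective
    have hirrD : ∀ W : Submodule (ZMod q) E, (∀ g, ∀ v ∈ W, φD g v ∈ W) → W = ⊥ ∨ W = ⊤ :=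
      fun W h => hirr W fun g v hv => h ⟨ψ g, g, rfl⟩ v hv
    haveI : Fact (Nat.Prime 2) := ⟨Nat.prime_two⟩
    have hle : (Subgroup.closure U).map ψ.rangeRestrict ≤ pCore 2 ψ.range := by
      rw [MonoidHom.map_closure, Subgroup.closure_le]
      rintro _ ⟨u, hu, rfl⟩
      refine mem_pCore_two_of_irreducible φD hφD hirrD ?_
      rcases hU u hu with h | ⟨z, m, h1, h2, h3, h4⟩
      · exact Or.inl h
      · exact Or.inr ⟨ψ.rangeRestrict z, m, h1, by rw [← map_pow, h2, map_one], by rw [h3, map_pow], h4⟩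
    have hker : oddPart U ≤ ψ.rangeRestrict.ker := by
      rw [oddPart, Subgroup.closure_le]
      rintro g ⟨hg, hodd⟩
      obtain ⟨i, hi⟩ := Components.pCore_isPGroup 2 (⟨_, hle (Subgroup.mem_map_of_mem _ hg)⟩ : pCore 2 ψ.range)
      exact eq_one_of_coprime_pow (congrArg Subtype.val hi) (by rw [← map_pow, pow_orderOf_eq_one, map_one])
        (hodd.coprime_two_left.pow_left i)
    exact congrArg Units.val (congrArg Subtype.val (hker hω))
  push Not at hirr
  obtain ⟨W, hW, hb, ht⟩ := hirr
  let φW : G →* Module.End (ZMod q) W :=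
    { toFun := fun g => (φ g).restrict (hW g)
      map_one' := by ext v; simp
      map_mul' := fun a b => by ext v; simp }
  let φQ : G →* Module.End (ZMod q) (E ⧸ W) :=
    { toFun := fun g => W.mapQ W (φ g) (hW g)
      map_one' := by ext v; simp
      map_mul' := fun a b => by ext v; simp }
  have hlt1 : Module.finrank (ZMod q) W < d := hd ▸ Submodule.finrank_lt ht
  have hlt2 : Module.finrank (ZMod q) (E ⧸ W) < d := by
    have h1 := Submodule.finrank_quotient_add_finrank W
    have : 0 < Module.finrank (ZMod q) W := by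
      rw [Nat.pos_iff_ne_zero, Ne, Submodule.finrank_eq_zero]; exact hb
    omega
  obtain ⟨k1, hk1⟩ := ih _ hlt1 W φW rfl (fun u hu => by
    rcases hU u hu with h | ⟨z, m, h1, h2, h3, h4⟩
    · exact Or.inl (LinearMap.ext fun v => Subtype.ext (LinearMap.congr_fun h (v : E)))
    · refine Or.inr ⟨z, m, h1, h2, h3, le_trans ?_ h4⟩
      rw [← Submodule.finrank_map_subtype_eq W]
      refine Submodule.finrank_mono ?_
      rintro _ ⟨_, ⟨v, rfl⟩, rfl⟩
      exact ⟨(v : E), rfl⟩) ω hω
  obtain ⟨k2, hk2⟩ := ih _ hlt2 (E ⧸ W) φQ rfl (fun u hu => by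
    rcases hU u hu with h | ⟨z, m, h1, h2, h3, h4⟩
    · refine Or.inl (Submodule.linearMap_qext W (LinearMap.ext fun v => ?_))
      exact congrArg (Submodule.Quotient.mk (p := W)) (LinearMap.congr_fun h v)
    · refine Or.inr ⟨z, m, h1, h2, h3, le_trans ?_ h4⟩
      refine le_trans (Submodule.finrank_mono (t := (LinearMap.range (φ z - 1)).map W.mkQ) ?_)
        (Submodule.finrank_map_le _ _)
      rintro _ ⟨v, rfl⟩
      obtain ⟨v, rfl⟩ := Submodule.Quotient.mk_surjective W v
      exact ⟨(φ z - 1) v, LinearMap.mem_range_self _ v, rfl⟩) ω hω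
  refine ⟨k1 + k2 + 1, ?_⟩
  set A := φ ω ^ q ^ (k1 + k2) with hA
  have hAW : ∀ v ∈ W, A v = v := by
    intro v hv
    have h : φW ω ^ q ^ (k1 + k2) = 1 := by rw [pow_add, pow_mul, hk1, one_pow]
    have := congrArg Subtype.val (LinearMap.congr_fun h ⟨v, hv⟩)
    rw [← map_pow] at this
    rw [hA, ← map_pow]
    exact this
  have hAQ : ∀ v, A v - v ∈ W := by
    intro v
    have h : φQ ω ^ q ^ (k1 + k2) = 1 := by rw [add_comm, pow_add, pow_mul, hk2, one_pow]
    have := LinearMap.congr_fun h (Submodule.Quotient.mk v)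
    rw [← map_pow] at this
    rw [hA, ← map_pow, ← Submodule.Quotient.eq W]
    exact this
  have hsq : (A - 1) ^ 2 = 0 := LinearMap.ext fun v => by
    rw [sq, Module.End.mul_apply, LinearMap.sub_apply, LinearMap.sub_apply, Module.End.one_apply,
      Module.End.one_apply, hAW _ (hAQ v), sub_self]
    rfl
  rw [pow_succ, pow_mul, ← hA, ← sub_eq_zero]
  have hchar : A ^ q - 1 = (A - 1) ^ q := by
    rcases subsingleton_or_nontrivial E with hs | hs
    · exact LinearMap.ext fun v => Subsingleton.elim _ _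
    haveI : CharP (Module.End (ZMod q) E) q :=
      charP_of_injective_algebraMap (algebraMap (ZMod q) (Module.End (ZMod q) E)).injective q
    rw [sub_pow_char_of_commute q (Commute.one_right A), one_pow]
  rw [hchar]
  exact pow_eq_zero_of_le hq.two_le hsq

end Cfsg.Agent.Lib.TwoLength
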