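import Cfsg.Agent.Lib.TwoLength.Module
import Cfsg.Agent.Lib.HallHigman.PLength
import Cfsg.Agent.Lib.HallHigman.PLengthTwice
import Cfsg.Agent.Lib.Thompson.PGroup

set_option autoImplicit false
set_option linter.unusedSectionVars false

/-! Gross's bound on the `2`-length. -/

namespace Cfsg.Agent.Lib.TwoLength

open Cfsg
open scoped commutatorElement

universe u

variable {H : Type u} [Group H] [Finite H]

/-- An element fixing a self-centralising normal subgroup of a `q`-group has `q`-power order on it. -/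
theorem centralizes_of_fixes {q : ℕ} [Fact q.Prime] {Q C : Subgroup H} [Q.Normal] [C.Normal] (hQ : IsPGroup q Q)
    (hCQ : C ≤ Q) (hC : ∀ t ∈ Q, (∀ c ∈ C, t * c = c * t) → t ∈ C) {g : H} {b : ℕ} (hb : b.Coprime q)
    (hgb : g ^ b = 1) (hfix : ∀ c ∈ C, g * c * g⁻¹ = c) : ∀ t ∈ Q, g * t * g⁻¹ = t := by
  intro t ht
  set c := t⁻¹ * (g * t * g⁻¹) with hc
  have hcQ : c ∈ Q := Q.mul_mem (Q.inv_mem ht) ((inferInstance : Q.Normal).conj_mem t ht g)
  have hcC : c ∈ C := hC c hcQ fun d hd => by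
    have hd' : t * d * t⁻¹ ∈ C := (inferInstance : C.Normal).conj_mem d hd t
    have h1 := hfix _ hd'
    rw [show g * (t * d * t⁻¹) * g⁻¹ = g * t * g⁻¹ * (g * d * g⁻¹) * (g * t * g⁻¹)⁻¹ by group, hfix d hd,
      show g * t * g⁻¹ = t * c by rw [hc, mul_inv_cancel_left]] at h1
    have h2 := congrArg (fun e => t⁻¹ * e * t * c) h1
    group at h2
    simpa [zpow_one, mul_assoc] using h2
  have hiter : ∀ j : ℕ, g ^ j * t * (g ^ j)⁻¹ = t * c ^ j := by
    intro j
    induction j with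
    | zero => simp
    | succ j ihj =>
      rw [show g ^ (j + 1) * t * (g ^ (j + 1))⁻¹ = g * (g ^ j * t * (g ^ j)⁻¹) * g⁻¹ by rw [pow_succ']; group, ihj,
        show g * (t * c ^ j) * g⁻¹ = g * t * g⁻¹ * (g * c * g⁻¹) ^ j by rw [conj_pow]; group, hfix c hcC,
        show g * t * g⁻¹ = t * c by rw [hc, mul_inv_cancel_left], mul_assoc, ← pow_succ']
  have hcb : c ^ b = 1 := by
    have := hiter b
    rwa [hgb, one_mul, inv_one, mul_one, left_eq_mul] at this
  obtain ⟨f, hf⟩ := hQ ⟨c, hcQ⟩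
  have hc1 : c = 1 := eq_one_of_coprime_pow hcb (congrArg Subtype.val hf) (hb.pow_right f)
  have := hiter 1
  rwa [pow_one, pow_one, hc1, mul_one] at this

/-- The top of an exceptional element on a faithful module lies in `O_{2',2}`. -/
theorem top_mem_upperPSeries_two [Group.IsSolvable H] (hO : pCore 2 H = ⊥) {V : Type u} [AddCommGroup V]
    [Module (ZMod 2) V] [FiniteDimensional (ZMod 2) V] (ρ : H →* Module.End (ZMod 2) V)
    (hρ : Function.Injective ρ) {y : H} {n : ℕ} (hn : n ≠ 0) (hy : y ^ 2 ^ n = 1)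
    (hexc : (ρ y - 1) ^ (2 ^ n - 1) = 0) : y ^ 2 ^ (n - 1) ∈ (upperPSeries 2 H 2).1 := by
  classical
  haveI : Fact (Nat.Prime 2) := ⟨Nat.prime_two⟩
  set u := y ^ 2 ^ (n - 1) with hu
  let U : Set H := Set.range fun h : H => h * u * h⁻¹
  have hUconj : ∀ g h : H, h ∈ U → g * h * g⁻¹ ∈ U := by
    rintro g _ ⟨h, rfl⟩
    exact ⟨g * h, by group⟩
  haveI hΓn : (Subgroup.closure U).Normal := by
    refine ⟨fun a ha g => ?_⟩
    induction ha using Subgroup.closure_induction with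
    | mem a ha => exact Subgroup.subset_closure (hUconj g a ha)
    | one => rw [mul_one, mul_inv_cancel]; exact one_mem _
    | mul a b _ _ iha ihb =>
      rw [show g * (a * b) * g⁻¹ = g * a * g⁻¹ * (g * b * g⁻¹) by group]
      exact mul_mem iha ihb
    | inv a _ iha =>
      rw [show g * a⁻¹ * g⁻¹ = (g * a * g⁻¹)⁻¹ by group]
      exact inv_mem iha
  haveI hΩn : (oddPart U).Normal := by
    refine ⟨fun a ha g => ?_⟩
    unfold oddPart at ha ⊢
    induction ha using Subgroup.closure_induction with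
    | mem a ha =>
      refine Subgroup.subset_closure ⟨hΓn.conj_mem a ha.1 g, ?_⟩
      rw [← MulAut.conj_apply, MulEquiv.orderOf_eq]
      exact ha.2
    | one => rw [mul_one, mul_inv_cancel]; exact one_mem _
    | mul a b _ _ iha ihb =>
      rw [show g * (a * b) * g⁻¹ = g * a * g⁻¹ * (g * b * g⁻¹) by group]
      exact mul_mem iha ihb
    | inv a _ iha =>
      rw [show g * a⁻¹ * g⁻¹ = (g * a * g⁻¹)⁻¹ by group]
      exact inv_mem iha
  have hU : ∀ v ∈ U, IsExcTop ρ v := by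
    rintro _ ⟨h, rfl⟩
    refine ⟨h * y * h⁻¹, n, hn, ?_, ?_, ?_⟩
    · rw [conj_pow, hy, mul_one, mul_inv_cancel]
    · rw [conj_pow]
    · have hinv : ρ h⁻¹ * ρ h = 1 := by rw [← map_mul, inv_mul_cancel, map_one]
      have h1 : ∀ j : ℕ, (ρ (h * y * h⁻¹) - 1) ^ j = ρ h * (ρ y - 1) ^ j * ρ h⁻¹ := by
        intro j
        induction j with
        | zero => rw [pow_zero, pow_zero, mul_one, ← map_mul, mul_inv_cancel, map_one]
        | succ j ihj =>
          rw [pow_succ, ihj, pow_succ, map_mul, map_mul, mul_assoc (ρ h), mul_assoc]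
          have e : ρ h⁻¹ * (ρ h * ρ y * ρ h⁻¹ - 1) = (ρ y - 1) * ρ h⁻¹ := by
            rw [mul_sub, ← mul_assoc, ← mul_assoc, hinv, one_mul, mul_one, sub_mul, one_mul]
          rw [mul_assoc, e]
          simp only [mul_assoc]
      rw [h1, hexc, mul_zero, zero_mul]
  -- the odd part centralises every core up to an odd power
  have hpow : ∀ ω ∈ oddPart U, ∀ r : Nat.Primes, (r : ℕ) ≠ 2 →
      ∃ k, ∀ t ∈ pCore (r : ℕ) H, ω ^ (r : ℕ) ^ k * t * (ω ^ (r : ℕ) ^ k)⁻¹ = t := by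
    intro ω hω r hr2
    haveI : Fact (Nat.Prime (r : ℕ)) := ⟨r.2⟩
    haveI : (pCore (r : ℕ) H).Normal := Cfsg.pCore_normal _ H
    have hQ : IsPGroup (r : ℕ) (pCore (r : ℕ) H) := Components.pCore_isPGroup (r : ℕ)
    obtain ⟨C, hCchar, -, hCcomm, hCc⟩ := Thompson.exists_critical hQ
    haveI := hCchar
    set C' := C.map (pCore (r : ℕ) H).subtype
    haveI : C'.Normal := inferInstance
    have hC'Q : C' ≤ pCore (r : ℕ) H := Subgroup.map_subtype_le C
    have hclass : ∀ a ∈ C', ∀ b ∈ C', ∀ c ∈ C', ⁅a, b⁆ * c = c * ⁅a, b⁆ := by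
      rintro _ ⟨a, ha, rfl⟩ _ ⟨b, hb, rfl⟩ _ ⟨c, hc, rfl⟩
      have h := hCcomm (Subgroup.commutator_mem_commutator ha (Subgroup.mem_top b))
      have h1 := congrArg Subtype.val (Subgroup.mem_centralizer_iff.mp h.2 c hc)
      rw [← map_commutatorElement (pCore (r : ℕ) H).subtype]
      exact h1.symm
    obtain ⟨k, hk⟩ := exists_fix hr2 ρ C' ((hQ.to_subgroup C).map _) hclass U hU ω hω
    obtain ⟨e, b, hb, hb'⟩ := Nat.exists_eq_pow_mul_and_not_dvd (n := orderOf ω) (orderOf_pos _).ne' (r : ℕ)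
      r.2.ne_one
    refine ⟨k + e, centralizes_of_fixes hQ hC'Q ?_ (b := b) ((r.2.coprime_iff_not_dvd.mpr hb).symm) ?_ ?_⟩
    · intro t ht hcomm
      refine ⟨⟨t, ht⟩, hCc (Subgroup.mem_centralizer_iff.mpr fun c hc => Subtype.ext ?_), rfl⟩
      exact (hcomm c ⟨c, hc, rfl⟩).symm
    · rw [← pow_mul, show (r : ℕ) ^ (k + e) * b = ((r : ℕ) ^ e * b) * (r : ℕ) ^ k by rw [pow_add]; ring, pow_mul,
        ← hb', pow_orderOf_eq_one, one_pow]
    · intro c hc
      refine hρ ?_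
      exact (fixImage_pow_le hk (Nat.le_add_right k e)) c hc
  have hFodd : Odd (Nat.card (fittingSubgroup H)) := by
    have hle : fittingSubgroup H ≤ pPrimeCore 2 H := by
      rw [Hall.fittingSubgroup_eq_iSup_pCore]
      refine iSup_le fun r => ?_
      by_cases h : (r : ℕ) = 2
      · rw [h, hO]; exact bot_le
      haveI : Fact (Nat.Prime (r : ℕ)) := ⟨r.2⟩
      haveI : (pCore (r : ℕ) H).Normal := Cfsg.pCore_normal _ H
      obtain ⟨e, he⟩ := IsPGroup.iff_card.mp (Components.pCore_isPGroup (r : ℕ) :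
        IsPGroup (r : ℕ) (pCore (r : ℕ) H))
      refine Components.le_pPrimeCore ?_
      rw [he]
      exact ((Nat.coprime_primes r.2 Nat.prime_two).mpr h).pow_left e
    exact Odd.of_dvd_nat (Nat.coprime_two_right.mp (Components.pPrimeCore_coprime 2))
      (Subgroup.card_dvd_of_le hle)
  have hΩodd : ∀ ω ∈ oddPart U, Odd (orderOf ω) := by
    intro ω hω
    obtain ⟨i, b, hb, hib⟩ := Nat.exists_eq_pow_mul_and_not_dvd (n := orderOf ω) (orderOf_pos _).ne' 2 (by norm_num)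
    have hmem : ω ^ b ∈ Subgroup.centralizer (fittingSubgroup H : Set H) := by
      refine Subgroup.mem_centralizer_iff.mpr ?_
      suffices hle : fittingSubgroup H ≤ Subgroup.centralizer ({ω ^ b} : Set H) from
        fun f hf => Subgroup.mem_centralizer_singleton_iff.mp (hle hf)
      rw [Hall.fittingSubgroup_eq_iSup_pCore]
      refine iSup_le fun r t ht => Subgroup.mem_centralizer_singleton_iff.mpr ?_
      by_cases hr : (r : ℕ) = 2
      · rw [hr, hO, Subgroup.mem_bot] at ht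
        rw [ht, one_mul, mul_one]
      obtain ⟨k, hk⟩ := hpow ω hω r hr
      have hg : Nat.gcd ((r : ℕ) ^ k) (orderOf ω) ∣ b := by
        refine Nat.Coprime.dvd_of_dvd_mul_left (m := 2 ^ i) ?_ ((Nat.gcd_dvd_right _ _).trans hib.dvd)
        exact Nat.Coprime.coprime_dvd_left (Nat.gcd_dvd_left _ _)
          (Nat.Coprime.pow k i ((Nat.coprime_primes r.2 Nat.prime_two).mpr hr))
      obtain ⟨c, hc⟩ := hg
      have hgz : ω ^ ((Nat.gcd ((r : ℕ) ^ k) (orderOf ω) : ℕ) : ℤ) ∈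
          Subgroup.centralizer ({t} : Set H) := by
        rw [Nat.gcd_eq_gcd_ab, zpow_add, zpow_mul, zpow_mul, zpow_natCast, zpow_natCast, pow_orderOf_eq_one,
          one_zpow, mul_one]
        exact Subgroup.zpow_mem _ (Subgroup.mem_centralizer_singleton_iff.mpr (mul_inv_eq_iff_eq_mul.mp (hk t ht))) _
      rw [zpow_natCast] at hgz
      have h := Subgroup.mem_centralizer_singleton_iff.mp (Subgroup.pow_mem _ hgz c)
      rw [← pow_mul, ← hc] at h
      exact h.symm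
    have hF := Hall.centralizer_fittingSubgroup_le hmem
    have h1 : ω ^ b = 1 := by
      refine eq_one_of_coprime_pow (a := 2 ^ i) (b := Nat.card (fittingSubgroup H)) ?_ ?_
        (hFodd.coprime_two_left.pow_left i)
      · rw [← pow_mul, mul_comm, ← hib, pow_orderOf_eq_one]
      · exact congrArg Subtype.val (pow_card_eq_one' (x := (⟨_, hF⟩ : fittingSubgroup H)))
    exact Odd.of_dvd_nat (Nat.odd_iff.mpr (Nat.two_dvd_ne_zero.mp hb)) (orderOf_dvd_of_pow_eq_one h1)
  have hΩK : oddPart U ≤ pPrimeCore 2 H := by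
    refine Components.le_pPrimeCore (Nat.coprime_two_right.mpr ?_)
    rw [← Nat.not_even_iff_odd, even_iff_two_dvd]
    intro hdvd
    obtain ⟨ω, hω⟩ := exists_prime_orderOf_dvd_card' 2 hdvd
    have h := hΩodd ω ω.2
    rw [Subgroup.orderOf_coe, hω] at h
    exact absurd h (by decide)
  refine PLength.le_succ_of_forall (n := 1) (Subgroup.closure U) (fun g hg => ?_)
    (Subgroup.subset_closure ⟨1, by group⟩)
  obtain ⟨i, b, hb, hib⟩ := Nat.exists_eq_pow_mul_and_not_dvd (n := orderOf g) (orderOf_pos _).ne' 2 (by norm_num)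
  refine ⟨2 ^ i, by rw [PLength.Good, if_neg (by decide)]; exact ⟨i, rfl⟩, ?_⟩
  rw [PLength.upperPSeries_one]
  refine hΩK (Subgroup.subset_closure ⟨Subgroup.pow_mem _ hg _, ?_⟩)
  refine Odd.of_dvd_nat (Nat.odd_iff.mpr (Nat.two_dvd_ne_zero.mp hb)) (orderOf_dvd_of_pow_eq_one ?_)
  rw [← pow_mul, ← hib, pow_orderOf_eq_one]

/-- In `G ⧸ O_2(G)` the `2 ^ e`-th powers lie in `O_{2',2}` when `G` has exponent `2 ^ (e + 1)`. -/
theorem pow_mem_upperPSeries_two {G : Type u} [Group G] [Finite G] [(pCore 2 G).Normal] [Group.IsSolvable G]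
    (hsol : IsPSolvable 2 G) (hred : pPrimeCore 2 G = ⊥) (e : ℕ)
    (hexp : ∀ x : G, (∃ a, x ^ 2 ^ a = 1) → x ^ 2 ^ (e + 1) = 1) (y : G ⧸ pCore 2 G) (hy : ∃ a, y ^ 2 ^ a = 1) :
    y ^ 2 ^ e ∈ (upperPSeries 2 (G ⧸ pCore 2 G) 2).1 := by
  classical
  haveI : Fact (Nat.Prime 2) := ⟨Nat.prime_two⟩
  obtain ⟨V, i1, i2, i3, π, ρ, hρi, hπs, hπadd, hπ0, hρ⟩ := HallHigman.exists_quotientModule hsol hred
  haveI : Group.IsSolvable (G ⧸ pCore 2 G) := Group.isSolvable_of_surjective (QuotientGroup.mk'_surjective _)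
  obtain ⟨a, ha⟩ := hy
  obtain ⟨x, rfl, b, hb⟩ := HallHigman.exists_pElement_lift (pCore 2 G) ha
  refine top_mem_upperPSeries_two PLength.pCore_quotient_pCore_eq_bot ρ hρi (n := e + 1) e.succ_ne_zero ?_ ?_
  · rw [← QuotientGroup.mk_pow, hexp x ⟨b, hb⟩, QuotientGroup.mk_one]
  rw [HallHigman.rho_sub_one_pow_pred]
  refine LinearMap.ext fun u => ?_
  obtain ⟨v, rfl⟩ := hπs u
  obtain ⟨w, hw, hπw⟩ := HallHigman.pi_mul_pow π hπadd (fun g u => ρ (g : G ⧸ pCore 2 G) u) hρ x v (2 ^ (e + 1))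
  have hvx : ∃ c, ((v : G) * x) ^ 2 ^ c = 1 := by
    have h1 : (((v : G) * x : G) : G ⧸ pCore 2 G) ^ 2 ^ a = 1 := by
      rw [QuotientGroup.mk_mul, (QuotientGroup.eq_one_iff _).mpr v.2, one_mul, ha]
    rw [← QuotientGroup.mk_pow, QuotientGroup.eq_one_iff] at h1
    obtain ⟨c, hc⟩ := Components.pCore_isPGroup 2 (⟨_, h1⟩ : pCore 2 G)
    exact ⟨a + c, by rw [pow_add, pow_mul]; exact congrArg Subtype.val hc⟩
  rw [hexp _ hvx, hexp x ⟨b, hb⟩, inv_one, mul_one] at hw
  rw [LinearMap.zero_apply, LinearMap.sum_apply]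
  calc ∑ i ∈ Finset.range (2 ^ (e + 1)), (ρ (x : G ⧸ pCore 2 G) ^ i) (π v) = π w := by
        rw [hπw]; exact Finset.sum_congr rfl fun i _ => by rw [QuotientGroup.mk_pow, map_pow]
    _ = 0 := by
        rw [show w = 1 from Subtype.ext hw]
        exact (hπ0 1).mpr (one_mem _)

end Cfsg.Agent.Lib.TwoLength
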