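import Cfsg.Agent.Lib.TwoLength.Disp
import Cfsg.Agent.Lib.TwoLength.LinearRoot
import Cfsg.Agent.Lib.HallHigman.CommutingRoots

set_option autoImplicit false
set_option linter.unusedSectionVars false
set_option linter.style.haveILetI false
set_option maxHeartbeats 800000

/-!
Tops of exceptional elements on a normal `q`-group of class two acting in characteristic two.
-/

namespace Cfsg.Agent.Lib.TwoLength

open Cfsg.Agent.Lib.HallHigman
open scoped commutatorElement

universe u v w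

variable {K : Type w} [Field K]

/-- `u` is the top of an element of two-power order of small degree. -/
def IsExcTop {G : Type u} [Group G] {V : Type v} [AddCommGroup V] [Module K V] (ρ : G →* Module.End K V)
    (u : G) : Prop :=
  ∃ (x : G) (n : ℕ), n ≠ 0 ∧ x ^ 2 ^ n = 1 ∧ u = x ^ 2 ^ (n - 1) ∧ (ρ x - 1) ^ (2 ^ n - 1) = 0

/-- The elements fixing the image of a normal subgroup. -/
def fixImage {G : Type u} [Group G] {V : Type v} [AddCommGroup V] [Module K V] (ρ : G →* Module.End K V)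
    (Q : Subgroup G) [Q.Normal] : Subgroup G where
  carrier := {g | ∀ t ∈ Q, ρ (g * t * g⁻¹) = ρ t}
  one_mem' := fun t _ => by rw [one_mul, inv_one, mul_one]
  mul_mem' := fun {a b} ha hb t ht => by
    rw [show a * b * t * (a * b)⁻¹ = a * (b * t * b⁻¹) * a⁻¹ by group,
      ha _ ((inferInstance : Q.Normal).conj_mem t ht b), hb t ht]
  inv_mem' := fun {a} ha t ht => by
    have hm := (inferInstance : Q.Normal).conj_mem t ht a⁻¹
    have h := ha _ hm
    rw [show a * (a⁻¹ * t * a⁻¹⁻¹) * a⁻¹ = t by group] at h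
    exact h.symm

theorem fixImage_pow_le {G : Type u} [Group G] {V : Type v} [AddCommGroup V] [Module K V]
    {ρ : G →* Module.End K V} {Q : Subgroup G} [Q.Normal] {ω : G} {q k k' : ℕ}
    (h : ω ^ q ^ k ∈ fixImage ρ Q) (hkk : k ≤ k') : ω ^ q ^ k' ∈ fixImage ρ Q := by
  obtain ⟨d, rfl⟩ := Nat.exists_eq_add_of_le hkk
  rw [pow_add, pow_mul]
  exact (fixImage ρ Q).pow_mem h _

/-- An automorphism of order prime to `q` trivial modulo `q`-th powers is trivial. -/
theorem eq_one_of_trivial_mod_pow' {X : Type u} [CommGroup X] [Finite X] {q N : ℕ} [Fact q.Prime]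
    (hN : N.Coprime q) (hX : IsPGroup q X) {a : MulAut X} (ha : a ^ N = 1)
    (htriv : ∀ t : X, ∃ s : X, a t = t * s ^ q) : a = 1 := by
  have key : ∀ i : ℕ, ∀ t : X, ∃ s : X, a (t ^ q ^ i) = t ^ q ^ i * s ^ q ^ (i + 1) := by
    intro i t
    obtain ⟨s, hs⟩ := htriv t
    refine ⟨s, ?_⟩
    rw [map_pow, hs, mul_pow, ← pow_mul, ← pow_succ']
  obtain ⟨k, hk⟩ := IsPGroup.iff_card.mp hX
  suffices h : ∀ d : ℕ, ∀ t : X, a (t ^ q ^ (k - d)) = t ^ q ^ (k - d) by
    exact MulEquiv.ext fun t => by simpa using h k t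
  intro d
  induction d with
  | zero =>
    intro t
    have : t ^ q ^ k = 1 := by rw [← hk]; exact pow_card_eq_one'
    rw [Nat.sub_zero, this, map_one]
  | succ d ih =>
    intro t
    rcases Nat.lt_or_ge d k with hlt | hge
    swap
    · rw [show k - (d + 1) = k - d by omega]; exact ih t
    obtain ⟨s, hs⟩ := key (k - (d + 1)) t
    rw [show k - (d + 1) + 1 = k - d by omega] at hs
    have hiter : ∀ n : ℕ, (a ^ n) (t ^ q ^ (k - (d + 1))) = t ^ q ^ (k - (d + 1)) * (s ^ q ^ (k - d)) ^ n := by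
      intro n
      induction n with
      | zero => simp
      | succ n ihn => rw [pow_succ', MulAut.mul_apply, ihn, map_mul, hs, map_pow, ih, pow_succ', mul_assoc]
    have h1 := hiter N
    rw [ha, MulAut.one_apply, left_eq_mul] at h1
    have h2 : (s ^ q ^ (k - d)) ^ q ^ k = 1 := by rw [← hk]; exact pow_card_eq_one'
    rw [hs, eq_one_of_coprime_pow h1 h2 (hN.pow_right k), mul_one]

variable {q : ℕ} [Fact q.Prime]

/-- In the homogeneous case an exceptional top acts on the quotient by the scalars as a plane top. -/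
theorem exists_piece [IsAlgClosed K] [CharP K 2] {G : Type u} [Group G] [Finite G] {V : Type v} [AddCommGroup V]
    [Module K V] [FiniteDimensional K V] [Nontrivial V] (ρ : G →* Module.End K V) (Q : Subgroup G)
    (hQ : IsPGroup q Q) (hq2 : q ≠ 2) (hqK : (q : K) ≠ 0) (hcomm : ∀ a ∈ Q, ∀ b ∈ Q, IsScalar ρ ⁅a, b⁆)
    (Zs : Subgroup G) (hZc : ∀ t ∈ Q, (∀ s ∈ Q, ρ t * ρ s = ρ s * ρ t) → t ∈ Zs)
    {x : G} (hxQ : x ∈ Subgroup.normalizer (Q : Set G)) {n : ℕ} (hn : n ≠ 0) (hxN : x ^ 2 ^ n = 1)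
    (hexc : (ρ x - 1) ^ (2 ^ n - 1) = 0) :
    (∀ t ∈ Q, ⁅x ^ 2 ^ (n - 1), t⁆ ∈ Zs) ∨ ∃ (a m : ℕ) (R : Subgroup G), n = a + m ∧ m ≠ 0 ∧ q + 1 = 2 ^ m ∧
      R ≤ Q ∧ R.relIndex Q ≤ q ^ 2 ∧ ∀ t ∈ R, ⁅x ^ 2 ^ a, t⁆ ∈ Zs := by
  classical
  set L := Q ⊔ Subgroup.zpowers x
  obtain ⟨U, hU⟩ := exists_simpleSub ρ L
  haveI : Nontrivial U := Submodule.nontrivial_iff_ne_bot.mpr hU.1
  have hQL : Q ≤ L := le_sup_left
  have hxL : x ∈ L := Subgroup.mem_sup_right (Subgroup.mem_zpowers x)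
  have hN : 0 < 2 ^ n := Nat.two_pow_pos n
  set ρU := restr ρ L U hU.2.1 with hρU
  have hxQ' : (⟨x, hxL⟩ : L) ∈ Subgroup.normalizer ((Q.subgroupOf L) : Set L) := by
    rw [Subgroup.mem_normalizer_iff]
    exact fun h => Subgroup.mem_normalizer_iff.mp hxQ (h : G)
  have hirr : ∀ W : Submodule K U, Inv ρU (Q.subgroupOf L) W → (∀ v ∈ W, ρU ⟨x, hxL⟩ v ∈ W) → W = ⊥ ∨ W = ⊤ := by
    intro W hW hWx
    have h1 : Inv ρ L (W.map U.subtype) := by
      refine TwoPowerFPF.inv_sup_zpowers hN hxN ?_ ?_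
      · rintro m hm _ ⟨w, hw, rfl⟩
        exact ⟨_, hW ⟨m, hQL hm⟩ hm w hw, rfl⟩
      · rintro _ ⟨w, hw, rfl⟩
        exact ⟨_, hWx w hw, rfl⟩
    rcases hU.2.2 _ (Submodule.map_subtype_le U W) h1 with h | h
    · left; exact Submodule.map_injective_of_injective U.injective_subtype (by rw [h, Submodule.map_bot])
    · right; exact Submodule.map_injective_of_injective U.injective_subtype (by rw [h, Submodule.map_subtype_top])
  obtain ⟨k, W0, hk, hkN, hW0, hWfix, hbij⟩ := clifford hxQ' hN (by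
    rw [show (⟨x, hxL⟩ : L) ^ 2 ^ n = 1 from Subtype.ext hxN]; exact one_mem _) hirr
  obtain ⟨a, han, rfl⟩ := (Nat.dvd_prime_pow Nat.prime_two).mp hkN
  set W := W0.map U.subtype with hWdef
  have hW : SimpleSub ρ Q W := TwoPowerFPF.simpleSub_map_subtype hQL hU.2.1 hW0
  have hfix : W.map (ρ (x ^ 2 ^ a)) = W := by
    have h := TwoPowerFPF.map_map_subtype hU.2.1 ((⟨x, hxL⟩ : L) ^ 2 ^ a) W0
    rw [hWfix] at h
    exact h
  have hindep : ∀ w0 ∈ W, ((ρ x - 1) ^ (2 ^ a - 1) : Module.End K V) w0 = 0 → w0 = 0 := by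
    rintro _ ⟨w, hw, rfl⟩ h
    haveI : Fact (Nat.Prime 2) := ⟨Nat.prime_two⟩
    rw [rho_sub_one_pow_pred, LinearMap.sum_apply, ← Fin.sum_univ_eq_sum_range (fun i => (ρ x ^ i) _)] at h
    have h1 : translateSum ρU ⟨x, hxL⟩ (2 ^ a) W0 (fun _ => ⟨w, hw⟩) = 0 := by
      refine Subtype.ext ?_
      rw [translateSum_apply, Submodule.coe_sum, Submodule.coe_zero]
      refine Eq.trans ?_ h
      refine Finset.sum_congr rfl fun i _ => ?_
      rw [hρU, restr_coe, ← map_pow]
      rfl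
    rw [← map_zero (translateSum ρU ⟨x, hxL⟩ (2 ^ a) W0)] at h1
    have h2 := congrArg Subtype.val (congrFun (hbij.1 h1) ⟨0, hk⟩)
    exact congrArg Subtype.val h2
  obtain ⟨w, hw, hw0⟩ := Submodule.exists_mem_ne_zero_of_ne_bot hW.1
  have han' : a < n := lt_of_le_of_ne han fun he =>
    hw0 (hindep w hw (by rw [he, hexc, LinearMap.zero_apply]))
  obtain ⟨m, rfl⟩ := Nat.exists_eq_add_of_le han
  have hm : m ≠ 0 := by omega
  set z := x ^ 2 ^ a with hz
  set H := stab ρ W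
  have hQH : Q ≤ H := inv_iff_le_stab.mp hW.2.1
  have hzH : z ∈ H := hfix
  have hInv : Inv ρ H W := fun g hg v hv => apply_mem_of_mem_stab hg hv
  haveI : Nontrivial W := Submodule.nontrivial_iff_ne_bot.mpr hW.1
  set ρW := restr ρ H W hInv with hρW
  have hirrW : Irred ρW (Q.subgroupOf H) := by
    intro X hX
    rcases hW.2.2 (X.map W.subtype) (Submodule.map_subtype_le W X) (by
      rintro g hg _ ⟨v, hv, rfl⟩
      exact ⟨_, hX ⟨g, hQH hg⟩ hg v hv, rfl⟩) with h | h
    · left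
      refine Submodule.map_injective_of_injective W.injective_subtype ?_
      rw [h, Submodule.map_bot]
    · right
      refine Submodule.map_injective_of_injective W.injective_subtype ?_
      rw [h, Submodule.map_subtype_top]
  have hcommW : ∀ v ∈ Q.subgroupOf H, ∀ v' ∈ Q.subgroupOf H, IsScalar ρW (v * v' * v⁻¹ * v'⁻¹) := by
    intro v hv v' hv'
    obtain ⟨c, hc⟩ := hcomm _ hv _ hv'
    refine ⟨c, LinearMap.ext fun e => Subtype.ext ?_⟩
    rw [commutatorElement_def] at hc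
    exact LinearMap.congr_fun hc (e : V)
  have hscal : ∀ t : H, (t : G) ∈ Q → IsScalar ρW t → (t : G) ∈ Zs := by
    rintro t ht ⟨c, hc⟩
    refine hZc _ ht fun s hs => ?_
    obtain ⟨d, hd⟩ := hcomm (t : G) ht s hs
    have e1 : ρ (t : G) * ρ s = d • (ρ s * ρ (t : G)) := by
      rw [← map_mul, ← map_mul, show (t : G) * s = ⁅(t : G), s⁆ * (s * t) by rw [commutatorElement_def]; group,
        map_mul _ ⁅(t : G), s⁆, hd, smul_mul_assoc, one_mul]
    have hcv : ∀ v ∈ W, ρ (t : G) v = c • v := fun v hv => congrArg Subtype.val (LinearMap.congr_fun hc ⟨v, hv⟩)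
    have h2 := LinearMap.congr_fun e1 w
    simp only [Module.End.mul_apply, LinearMap.smul_apply, hcv w hw, map_smul,
      hcv (ρ s w) (hW.2.1 s hs w hw)] at h2
    have hc0 : c ≠ 0 := fun h => hw0 (rho_injective (ρ := ρ) (t : G) (by rw [hcv w hw, h, zero_smul, map_zero]))
    have hsw : ρ s w ≠ 0 := fun h => hw0 (rho_injective (ρ := ρ) s (by rw [h, map_zero]))
    rw [smul_smul] at h2
    have hd1 : d = 1 := (mul_eq_right₀ hc0).mp (smul_left_injective K hsw h2).symm
    rw [e1, hd1, one_smul]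
  have hzQ : z ∈ Subgroup.normalizer (Q : Set G) := Subgroup.pow_mem _ hxQ _
  have hQW : IsPGroup q (Q.subgroupOf H) := hQ.of_equiv (Subgroup.subgroupOfEquivOfLe hQH).symm
  have hzQ' : (⟨z, hzH⟩ : H) ∈ Subgroup.normalizer ((Q.subgroupOf H) : Set H) := by
    rw [Subgroup.mem_normalizer_iff]
    exact fun h => Subgroup.mem_normalizer_iff.mp hzQ (h : G)
  have hzN : (⟨z, hzH⟩ : H) ^ 2 ^ m = 1 := Subtype.ext (by
    show z ^ 2 ^ m = 1
    rw [hz, ← pow_mul, ← pow_add, hxN])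
  have hexcW : (ρW ⟨z, hzH⟩ - 1) ^ (2 ^ m - 1) = 0 := LinearMap.ext fun e => Subtype.ext (by
    haveI : Fact (Nat.Prime 2) := ⟨Nat.prime_two⟩
    rw [hρW, rho_pow_sub_one_restr]
    show ((ρ z - 1) ^ (2 ^ m - 1) : Module.End K V) (e : V) = ((0 : W) : V)
    rw [Submodule.coe_zero]
    refine hindep _ ?_ ?_
    · have h := rho_pow_sub_one_restr hInv ⟨z, hzH⟩ (2 ^ m - 1) e
      rw [← h]
      exact SetLike.coe_mem _
    · have h1 : 2 ^ a * 2 ^ m = 2 ^ (a + m) := (pow_add 2 a m).symm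
      have h2 := Nat.one_le_pow m 2 two_pos
      have h3 := Nat.one_le_pow a 2 two_pos
      obtain ⟨e', he'⟩ := Nat.exists_eq_add_of_le h2
      rw [he', mul_add, mul_one] at h1
      rw [hz, map_pow, ← rho_sub_one_pow, ← pow_mul, ← Module.End.mul_apply, ← pow_add, he',
        Nat.add_sub_cancel_left, show 2 ^ a - 1 + 2 ^ a * e' = 2 ^ (a + m) - 1 by omega, hexc,
        LinearMap.zero_apply])
  have htop : ((⟨z, hzH⟩ : H) ^ 2 ^ (m - 1) : H).1 = x ^ 2 ^ (a + m - 1) := by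
    show z ^ 2 ^ (m - 1) = _
    rw [hz, ← pow_mul, ← pow_add]
    congr 2; omega
  by_cases hmoved : ∃ v ∈ Q.subgroupOf H, ¬ IsScalar ρW (v⁻¹ *
      ((⟨z, hzH⟩ : H) ^ 2 ^ (m - 1) * v * ((⟨z, hzH⟩ : H) ^ 2 ^ (m - 1))⁻¹))
  · obtain ⟨hqm, R, hR, hidx, hfixR⟩ := displacement ρW (Q.subgroupOf H) hQW hq2 hirrW hcommW hqK ⟨z, hzH⟩ hm
      hzQ' hzN hexcW hmoved
    refine Or.inr ⟨a, m, R.map H.subtype, rfl, hm, hqm, ?_, ?_, ?_⟩
    · exact (Subgroup.map_mono hR).trans (Subgroup.map_subgroupOf_eq_of_le hQH).le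
    · conv_lhs => rw [← Subgroup.map_subgroupOf_eq_of_le hQH]
      rwa [Subgroup.relIndex_map_map_of_injective _ _ H.subtype_injective]
    · rintro _ ⟨t, ht, rfl⟩
      have e : ⁅z, (t : G)⁆ = ((⁅(⟨z, hzH⟩ : H), t⁆ : H) : G) :=
        (map_commutatorElement H.subtype ⟨z, hzH⟩ t).symm
      show ⁅x ^ 2 ^ a, (t : G)⁆ ∈ Zs
      rw [← hz, e]
      refine hscal _ ?_ (hfixR t ht)
      rw [← e, commutatorElement_def]
      exact Q.mul_mem ((Subgroup.mem_normalizer_iff.mp hzQ _).mp (hR ht)) (Q.inv_mem (hR ht))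
  · push Not at hmoved
    refine Or.inl fun t ht => ?_
    have h := hmoved ⟨t, hQH ht⟩ ht
    rw [← commutator_scalar_iff hcommW (Subgroup.pow_mem _ hzQ' _) (show (⟨t, hQH ht⟩ : H) ∈ Q.subgroupOf H from ht)]
      at h
    have e : ⁅x ^ 2 ^ (a + m - 1), t⁆ = ((⁅(⟨z, hzH⟩ : H) ^ 2 ^ (m - 1), (⟨t, hQH ht⟩ : H)⁆ : H) : G) := by
      rw [← htop]
      exact (map_commutatorElement H.subtype ((⟨z, hzH⟩ : H) ^ 2 ^ (m - 1)) ⟨t, hQH ht⟩).symm
    rw [e]
    refine hscal _ ?_ h
    rw [← e, commutatorElement_def]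
    exact Q.mul_mem ((Subgroup.mem_normalizer_iff.mp (Subgroup.pow_mem _ hxQ _) t).mp ht) (Q.inv_mem ht)

/-- The homogeneous case. -/
theorem exists_fix_of_scalar [IsAlgClosed K] [CharP K 2] {G : Type u} [Group G] [Finite G] [Group.IsSolvable G]
    {V : Type v} [AddCommGroup V] [Module K V] [FiniteDimensional K V] [Nontrivial V]
    (ρ : G →* Module.End K V) (Q : Subgroup G) [Q.Normal] (hQ : IsPGroup q Q) (hq2 : q ≠ 2) (hqK : (q : K) ≠ 0)
    (hcomm : ∀ a ∈ Q, ∀ b ∈ Q, IsScalar ρ ⁅a, b⁆)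
    (hscalar : ∀ t ∈ Q, (∀ s ∈ Q, ρ t * ρ s = ρ s * ρ t) → IsScalar ρ t) (U : Set G)
    (hU : ∀ u ∈ U, IsExcTop ρ u) : ∀ ω ∈ oddPart U, ∃ k, ω ^ q ^ k ∈ fixImage ρ Q := by
  classical
  intro ω hω
  have hq : q.Prime := Fact.out
  set Zs := scalarsIn ρ Q with hZs
  haveI hZn : Zs.Normal := ⟨fun t ht g => mem_scalarsIn.mpr
    ⟨(inferInstance : Q.Normal).conj_mem t (mem_scalarsIn.mp ht).1 g, isScalar_conj (mem_scalarsIn.mp ht).2 g⟩⟩
  let Z0 : Subgroup Q := Zs.subgroupOf Q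
  haveI : Z0.Normal := hZn.subgroupOf Q
  let X := Q ⧸ Z0
  letI : CommGroup X :=
    { (inferInstance : Group X) with
      mul_comm := fun b c => QuotientGroup.induction_on b fun b => QuotientGroup.induction_on c fun c => by
        rw [← QuotientGroup.mk_mul, ← QuotientGroup.mk_mul, QuotientGroup.eq, Subgroup.mem_subgroupOf]
        refine mem_scalarsIn.mpr ⟨SetLike.coe_mem _, ?_⟩
        rw [show (((b * c)⁻¹ * (c * b) : Q) : G) = ⁅((c⁻¹ : Q) : G), ((b⁻¹ : Q) : G)⁆ by
          simp [commutatorElement_def, mul_assoc]]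
        exact hcomm _ (c⁻¹).2 _ (b⁻¹).2 }
  have hmap : ∀ g : G, Z0.map (MulAut.conjNormal (H := Q) g).toMonoidHom = Z0 := by
    intro g
    ext v
    constructor
    · rintro ⟨t, ht, rfl⟩
      show ((MulAut.conjNormal g t : Q) : G) ∈ Zs
      rw [MulAut.conjNormal_apply]
      exact hZn.conj_mem _ ht g
    · intro hv
      refine ⟨(MulAut.conjNormal g).symm v, ?_, MulEquiv.apply_symm_apply _ v⟩
      show (((MulAut.conjNormal g).symm v : Q) : G) ∈ Zs
      rw [MulAut.conjNormal_symm_apply]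
      have h := hZn.conj_mem _ hv g⁻¹
      rwa [inv_inv] at h
  let ψ : G →* MulAut X :=
    { toFun := fun g => QuotientGroup.congr Z0 Z0 (MulAut.conjNormal g) (hmap g)
      map_one' := MulEquiv.ext fun e => QuotientGroup.induction_on e fun v => by
        show ((MulAut.conjNormal (1 : G) v : Q) : X) = (v : X)
        rw [map_one]; rfl
      map_mul' := fun g h => MulEquiv.ext fun e => QuotientGroup.induction_on e fun v => by
        show ((MulAut.conjNormal (g * h) v : Q) : X) =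
          ((MulAut.conjNormal g (MulAut.conjNormal h v) : Q) : X)
        rw [map_mul]; rfl }
  have hψmk : ∀ (g : G) (v : Q), ψ g (v : X) = ((MulAut.conjNormal g v : Q) : X) := fun _ _ => rfl
  have hfixed : ∀ (g : G) (v : Q), ⁅g, (v : G)⁆ ∈ Zs → ψ g (v : X) = (v : X) := by
    intro g v h
    rw [hψmk, eq_comm, QuotientGroup.eq, Subgroup.mem_subgroupOf, Subgroup.coe_mul, InvMemClass.coe_inv,
      MulAut.conjNormal_apply, show (v : G)⁻¹ * (g * v * g⁻¹) = (v : G)⁻¹ * ⁅g, (v : G)⁆ * (v : G)⁻¹⁻¹ by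
        rw [commutatorElement_def]; group]
    exact hZn.conj_mem _ h _
  let P0 : Subgroup X := (powMonoidHom q).range
  have hmapP : ∀ a : MulAut X, P0 ≤ P0.comap a.toMonoidHom := by
    rintro a _ ⟨t, rfl⟩
    exact ⟨a t, (map_pow a t q).symm⟩
  let act : MulAut X →* Monoid.End (X ⧸ P0) :=
    { toFun := fun a => QuotientGroup.map P0 P0 a.toMonoidHom (hmapP a)
      map_one' := MonoidHom.ext fun c => QuotientGroup.induction_on c fun t => rfl
      map_mul' := fun a b => MonoidHom.ext fun c => QuotientGroup.induction_on c fun t => rfl }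
  have hexp : ∀ c : X ⧸ P0, c ^ q = 1 := fun c => QuotientGroup.induction_on c fun t => by
    rw [← QuotientGroup.mk_pow, QuotientGroup.eq_one_iff]
    exact ⟨t, rfl⟩
  haveI : Finite (MulAut X) := Finite.of_injective _ DFunLike.coe_injective
  obtain ⟨i1, i2, ρX, hρX⟩ := exists_linearization (G := MulAut X) (p := q) (X ⧸ P0) hexp act
  let φ := ρX.comp ψ
  have hφ : ∀ (g : G) (v : Q), φ g (Additive.ofMul ((v : X) : X ⧸ P0)) =
      Additive.ofMul ((ψ g (v : X) : X) : X ⧸ P0) := fun g v => hρX _ _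
  have hroot : ∀ u ∈ U, IsPlaneTop φ u := by
    intro u hu
    obtain ⟨x, n, hn, hxN, hux, hexc⟩ := hU u hu
    rcases exists_piece ρ Q hQ hq2 hqK hcomm Zs (fun t ht h => mem_scalarsIn.mpr ⟨ht, hscalar t ht h⟩)
      (x := x) (by rw [Subgroup.normalizer_eq_top (H := Q)]; exact Subgroup.mem_top x) hn hxN hexc with
      h | ⟨a, m, R, rfl, hm, hqm, hR, hidx, hfixR⟩
    · refine Or.inl ?_
      have h1 : ψ u = 1 := MulEquiv.ext fun e => QuotientGroup.induction_on e fun v =>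
        hfixed u v (hux ▸ h v v.2)
      show ρX (ψ u) = 1
      rw [h1, map_one]
    · refine Or.inr ⟨x ^ 2 ^ a, m, hqm, by rw [← pow_mul, ← pow_add, hxN],
        by rw [hux, ← pow_mul, ← pow_add]; congr 2; omega, ?_⟩
      set z := x ^ 2 ^ a
      let A : Module.End (ZMod q) (Additive (X ⧸ P0)) := φ z - 1
      let f : Q →* Multiplicative (LinearMap.range A) := MonoidHom.mk'
        (fun v : Q => Multiplicative.ofAdd (A.rangeRestrict (Additive.ofMul ((v : X) : X ⧸ P0)))) fun b c => by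
          rw [QuotientGroup.mk_mul, QuotientGroup.mk_mul, ofMul_mul, map_add]; rfl
      have hfs : Function.Surjective f := by
        intro e
        obtain ⟨⟨_, w, rfl⟩, rfl⟩ := Multiplicative.ofAdd.surjective e
        obtain ⟨c, hc⟩ := QuotientGroup.mk_surjective w.toMul
        obtain ⟨v, rfl⟩ := QuotientGroup.mk_surjective c
        refine ⟨v, congrArg Multiplicative.ofAdd (Subtype.ext ?_)⟩
        show A (Additive.ofMul ((v : X) : X ⧸ P0)) = A w
        rw [hc]; rfl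
      have hker : R.subgroupOf Q ≤ f.ker := by
        intro v hv
        refine congrArg Multiplicative.ofAdd (Subtype.ext ?_)
        show A (Additive.ofMul ((v : X) : X ⧸ P0)) = 0
        show φ z (Additive.ofMul ((v : X) : X ⧸ P0)) - Additive.ofMul ((v : X) : X ⧸ P0) = 0
        rw [hφ, hfixed z v (hfixR _ hv), sub_self]
      have h1 : Nat.card (LinearMap.range A) ≤ q ^ 2 := by
        rw [← Nat.card_congr Multiplicative.toAdd, ← Subgroup.card_top, ← MonoidHom.range_eq_top.mpr hfs,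
          ← Subgroup.index_ker]
        exact (Nat.le_of_dvd (Nat.pos_of_ne_zero Subgroup.index_ne_zero_of_finite)
          (Subgroup.index_dvd_of_le hker)).trans hidx
      rw [Module.natCard_eq_pow_finrank (K := ZMod q), Nat.card_zmod] at h1
      exact (Nat.pow_le_pow_iff_right hq.one_lt).mp h1
  obtain ⟨k, hk⟩ := exists_pow_eq_one U _ (Additive (X ⧸ P0)) φ rfl hroot ω hω
  obtain ⟨e, b, hb, hb'⟩ := Nat.exists_eq_pow_mul_and_not_dvd (n := orderOf (ψ ω)) (orderOf_pos _).ne' q hq.ne_one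
  have hone : ψ ω ^ q ^ (e + k) = 1 := by
    refine eq_one_of_trivial_mod_pow' (N := b) ((hq.coprime_iff_not_dvd.mpr hb).symm) (hQ.to_quotient Z0) ?_
      fun t => ?_
    · rw [← pow_mul, show q ^ (e + k) * b = q ^ k * (q ^ e * b) by rw [pow_add]; ring, ← hb', mul_comm, pow_mul,
        pow_orderOf_eq_one, one_pow]
    · obtain ⟨v, rfl⟩ := QuotientGroup.mk_surjective t
      have h1 : φ (ω ^ q ^ (e + k)) = 1 := by rw [map_pow, add_comm, pow_add, pow_mul, hk, one_pow]
      have h2 := LinearMap.congr_fun h1 (Additive.ofMul ((v : X) : X ⧸ P0))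
      rw [hφ, Module.End.one_apply, map_pow] at h2
      obtain ⟨s, hs⟩ := (QuotientGroup.eq.mp (Additive.ofMul.injective h2).symm)
      exact ⟨s, by rw [powMonoidHom_apply] at hs; rw [hs, mul_inv_cancel_left]⟩
  obtain ⟨f, hf⟩ := IsPGroup.iff_card.mp hQ
  refine ⟨e + k + f, ?_⟩
  rw [pow_add, pow_mul]
  set g := ω ^ q ^ (e + k) with hg
  intro t ht
  have hψg : ψ g = 1 := by rw [hg, map_pow]; exact hone
  have h3 := DFunLike.congr_fun hψg ((⟨t, ht⟩ : Q) : X)
  rw [hψmk, MulAut.one_apply, eq_comm, QuotientGroup.eq, Subgroup.mem_subgroupOf, Subgroup.coe_mul,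
    InvMemClass.coe_inv, MulAut.conjNormal_apply] at h3
  change t⁻¹ * (g * t * g⁻¹) ∈ Zs at h3
  obtain ⟨hcQ, s, hs⟩ := mem_scalarsIn.mp h3
  set c := t⁻¹ * (g * t * g⁻¹) with hc
  have hcc : ∀ h : G, ρ (h * c * h⁻¹) = ρ c := fun h => by
    rw [map_mul, map_mul, hs, mul_smul_comm, mul_one, smul_mul_assoc, ← map_mul, mul_inv_cancel, map_one]
  have hiter : ∀ j : ℕ, ρ (g ^ j * t * (g ^ j)⁻¹) = ρ (t * c ^ j) := by
    intro j
    induction j with
    | zero => simp
    | succ j ihj =>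
      rw [show g ^ (j + 1) * t * (g ^ (j + 1))⁻¹ = g ^ j * t * (g ^ j)⁻¹ * (g ^ j * c * (g ^ j)⁻¹) by
          rw [hc, pow_succ]; group,
        map_mul, ihj, hcc, ← map_mul, mul_assoc, ← pow_succ]
  have hcf : c ^ q ^ f = 1 := by
    rw [← hf, ← Subgroup.coe_mk Q c hcQ, ← SubgroupClass.coe_pow, pow_card_eq_one', OneMemClass.coe_one]
  rw [hiter, hcf, mul_one]

omit [Field K] in
theorem oddPart_le_map {G : Type u} [Group G] {U : Set G} {H : Subgroup G} (hUH : U ⊆ H) :
    oddPart U ≤ (oddPart {u : H | (u : G) ∈ U}).map H.subtype := by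
  rw [oddPart, Subgroup.closure_le]
  rintro g ⟨hg, hodd⟩
  have e : U = H.subtype '' {u : H | (u : G) ∈ U} := by
    ext u
    exact ⟨fun hu => ⟨⟨u, hUH hu⟩, hu, rfl⟩, fun ⟨v, hv, hvu⟩ => hvu ▸ hv⟩
  rw [e, ← MonoidHom.map_closure] at hg
  obtain ⟨v, hv, rfl⟩ := hg
  exact ⟨v, Subgroup.subset_closure ⟨hv, by rwa [Subgroup.coe_subtype, Subgroup.orderOf_coe] at hodd⟩, rfl⟩

theorem exists_fix_aux [IsAlgClosed K] [CharP K 2] (hq2 : q ≠ 2) (hqK : (q : K) ≠ 0) (d : ℕ) :
    ∀ (G : Type u) [Group G] [Finite G] [Group.IsSolvable G] (V : Type v) [AddCommGroup V] [Module K V]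
      [FiniteDimensional K V] (ρ : G →* Module.End K V) (Q : Subgroup G) [Q.Normal], Module.finrank K V = d →
      IsPGroup q Q → (∀ a ∈ Q, ∀ b ∈ Q, ∀ c ∈ Q, ⁅a, b⁆ * c = c * ⁅a, b⁆) → ∀ U : Set G,
      (∀ u ∈ U, IsExcTop ρ u) → ∀ ω ∈ oddPart U, ∃ k, ω ^ q ^ k ∈ fixImage ρ Q := by
  induction d using Nat.strong_induction_on with
  | _ d ih =>
  intro G _ _ _ V _ _ _ ρ Q _ hd hQ hclass U hU ω hω
  classical
  haveI : Fact (Nat.Prime 2) := ⟨Nat.prime_two⟩
  rcases subsingleton_or_nontrivial V with hV | hV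
  · exact ⟨0, fun t _ => LinearMap.ext fun v => Subsingleton.elim _ _⟩
  have hQn : ∀ g : G, ∀ t ∈ Q, g * t * g⁻¹ ∈ Q := fun g t ht => (inferInstance : Q.Normal).conj_mem t ht g
  by_cases hirr : ∀ W : Submodule K V, (∀ g, ∀ v ∈ W, ρ g v ∈ W) → W = ⊥ ∨ W = ⊤
  swap
  · push Not at hirr
    obtain ⟨W, hW, hb, ht⟩ := hirr
    let ρW : G →* Module.End K W :=
      { toFun := fun g => (ρ g).restrict (hW g)
        map_one' := by ext v; simp
        map_mul' := fun a b => by ext v; simp }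
    let ρQ : G →* Module.End K (V ⧸ W) :=
      { toFun := fun g => W.mapQ W (ρ g) (hW g)
        map_one' := by ext v; simp
        map_mul' := fun a b => by ext v; simp }
    have hlt1 : Module.finrank K W < d := hd ▸ Submodule.finrank_lt ht
    have hlt2 : Module.finrank K (V ⧸ W) < d := by
      have h1 := Submodule.finrank_quotient_add_finrank W
      have : 0 < Module.finrank K W := by
        rw [Nat.pos_iff_ne_zero, Ne, Submodule.finrank_eq_zero]; exact hb
      omega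
    have hWpow : ∀ (g : G) (j : ℕ) (v : W), (((ρW g - 1) ^ j) v : V) = ((ρ g - 1) ^ j) (v : V) := by
      intro g j
      induction j with
      | zero => intro v; rfl
      | succ j ihj =>
        intro v
        rw [pow_succ, pow_succ, Module.End.mul_apply, Module.End.mul_apply, ihj]
        rfl
    have hQpow : ∀ (g : G) (j : ℕ) (v : V), ((ρQ g - 1) ^ j) (Submodule.Quotient.mk v) =
        Submodule.Quotient.mk (((ρ g - 1) ^ j) v) := by
      intro g j
      induction j with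
      | zero => intro v; rfl
      | succ j ihj =>
        intro v
        rw [pow_succ, pow_succ, Module.End.mul_apply, Module.End.mul_apply, ← ihj]
        rfl
    obtain ⟨k1, hk1⟩ := ih _ hlt1 G W ρW Q rfl hQ hclass U (fun u hu => by
      obtain ⟨x, n, hn, hx, hux, hexc⟩ := hU u hu
      refine ⟨x, n, hn, hx, hux, LinearMap.ext fun v => Subtype.ext ?_⟩
      rw [hWpow, hexc]
      rfl) ω hω
    obtain ⟨k2, hk2⟩ := ih _ hlt2 G (V ⧸ W) ρQ Q rfl hQ hclass U (fun u hu => by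
      obtain ⟨x, n, hn, hx, hux, hexc⟩ := hU u hu
      refine ⟨x, n, hn, hx, hux, LinearMap.ext fun v => ?_⟩
      obtain ⟨v, rfl⟩ := Submodule.Quotient.mk_surjective W v
      rw [hQpow, hexc]
      rfl) ω hω
    have h1 := fixImage_pow_le hk1 (Nat.le_add_right k1 k2)
    have h2 := fixImage_pow_le hk2 (Nat.le_add_left k2 k1)
    refine ⟨k1 + k2, fun t ht => ?_⟩
    set g := ω ^ q ^ (k1 + k2)
    set e := t⁻¹ * (g * t * g⁻¹) with he
    have heQ : e ∈ Q := Q.mul_mem (Q.inv_mem ht) (hQn g t ht)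
    have hA1 : ∀ w ∈ W, ρ e w = w := fun w hw => by
      have h3 : ρ (g * t * g⁻¹) w = ρ t w := congrArg Subtype.val (LinearMap.congr_fun (h1 t ht) ⟨w, hw⟩)
      rw [he, rho_mul, h3, rho_inv_apply]
    have hA2 : ∀ v, ρ e v - v ∈ W := fun v => by
      have h3 := LinearMap.congr_fun (h2 t ht) (Submodule.Quotient.mk v)
      change (Submodule.Quotient.mk (ρ (g * t * g⁻¹) v) : V ⧸ W) = Submodule.Quotient.mk (ρ t v) at h3
      rw [Submodule.Quotient.eq] at h3
      have h4 := hW t⁻¹ _ h3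
      rw [map_sub, rho_inv_apply] at h4
      rw [he, rho_mul]
      exact h4
    obtain ⟨j, hj⟩ := hQ ⟨e, heQ⟩
    have hone : ρ e = 1 := by
      refine eq_one_of_pow_prime_pow (e := j) hqK (LinearMap.ext fun v => ?_) ?_
      · show ρ e (ρ e v - v) - (ρ e v - v) = 0
        rw [hA1 _ (hA2 v), sub_self]
      · rw [← map_pow, show e ^ q ^ j = 1 from congrArg Subtype.val hj, map_one]
    rw [show g * t * g⁻¹ = t * e by rw [he, mul_inv_cancel_left], map_mul, hone, mul_one]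
  -- the centre of the image
  let Zc : Subgroup G := Q ⊓ (Subgroup.centralizer (ρ.toHomUnits '' (Q : Set G))).comap ρ.toHomUnits
  have hZmem : ∀ t, t ∈ Zc ↔ t ∈ Q ∧ ∀ s ∈ Q, ρ t * ρ s = ρ s * ρ t := by
    intro t
    simp only [Zc, Subgroup.mem_inf, Subgroup.mem_comap, Subgroup.mem_centralizer_iff, Set.mem_image,
      SetLike.mem_coe, forall_exists_index, and_imp, forall_apply_eq_imp_iff₂]
    refine and_congr_right fun _ => forall₂_congr fun s _ => ?_
    rw [Units.ext_iff, Units.val_mul, Units.val_mul]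
    exact eq_comm
  have hcom : ∀ a ∈ Q, ∀ b ∈ Q, ⁅a, b⁆ ∈ Zc := fun a ha b hb => by
    refine (hZmem _).mpr ⟨?_, fun s hs => by rw [← map_mul, hclass a ha b hb s hs, map_mul]⟩
    rw [commutatorElement_def]
    exact Q.mul_mem (Q.mul_mem (Q.mul_mem ha hb) (Q.inv_mem ha)) (Q.inv_mem hb)
  have hZconj : ∀ (g : G), ∀ t ∈ Zc, g * t * g⁻¹ ∈ Zc := by
    intro g t ht
    rw [hZmem] at ht ⊢
    refine ⟨hQn g t ht.1, fun s hs => ?_⟩
    have hs' : g⁻¹ * s * g ∈ Q := by simpa using hQn g⁻¹ s hs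
    have h1 := congrArg (fun f => ρ g * f * ρ g⁻¹) (ht.2 _ hs')
    simp only [← map_mul] at h1 ⊢
    convert h1 using 2 <;> group
  let T : Zc → Module.End K V := fun z => ρ (z : G)
  obtain ⟨v, -, hv0, χ, hχ⟩ := exists_weight T
    (fun a b => ((hZmem _).mp a.2).2 _ ((hZmem _).mp b.2).1) _ (⊤ : Submodule K V) le_rfl top_ne_bot
    (fun _ _ _ => Submodule.mem_top)
  let Ew : (Zc → K) → Submodule K V := fun ξ => ⨅ z : Zc, Module.End.eigenspace (T z) (ξ z)
  have hEmem : ∀ ξ w, w ∈ Ew ξ ↔ ∀ z : Zc, ρ (z : G) w = ξ z • w := fun ξ w => by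
    simp [Ew, T, Submodule.mem_iInf]
  by_cases htop : Ew χ = ⊤
  · refine exists_fix_of_scalar ρ Q hQ hq2 hqK (fun a ha b hb => ?_) (fun t ht h => ?_) U hU ω hω
    · exact ⟨χ ⟨_, hcom a ha b hb⟩, LinearMap.ext fun w =>
        (hEmem χ w).mp (htop ▸ Submodule.mem_top) ⟨_, hcom a ha b hb⟩⟩
    · exact ⟨χ ⟨t, (hZmem t).mpr ⟨ht, h⟩⟩, LinearMap.ext fun w =>
        (hEmem χ w).mp (htop ▸ Submodule.mem_top) ⟨t, (hZmem t).mpr ⟨ht, h⟩⟩⟩
  let shift : (Zc → K) → G → Zc → K := fun ξ g z =>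
    ξ ⟨g⁻¹ * (z : G) * g, by simpa using hZconj g⁻¹ _ z.2⟩
  have hshift : ∀ ξ (g : G), ∀ w ∈ Ew ξ, ρ g w ∈ Ew (shift ξ g) := by
    intro ξ g w hw
    rw [hEmem] at hw ⊢
    intro z
    have h1 := congrArg (ρ g) (hw ⟨g⁻¹ * (z : G) * g, by simpa using hZconj g⁻¹ _ z.2⟩)
    rw [map_smul, ← rho_mul] at h1
    rw [← rho_mul]
    convert h1 using 2
    group
  have hshift2 : ∀ ξ (g h : G), shift (shift ξ g) h = shift ξ (h * g) := fun ξ g h => funext fun z => by
    simp only [shift]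
    congr 1
    exact Subtype.ext (by simp [mul_assoc])
  have hone : ∀ ξ, shift ξ 1 = ξ := fun ξ => funext fun z => congrArg ξ (Subtype.ext (by simp))
  have hmap : ∀ ξ (g : G), (Ew ξ).map (ρ g) = Ew (shift ξ g) := by
    intro ξ g
    refine le_antisymm (by rintro _ ⟨w, hw, rfl⟩; exact hshift ξ g w hw) fun w hw => ?_
    refine ⟨ρ g⁻¹ w, ?_, rho_apply_inv g w⟩
    have h1 := hshift _ g⁻¹ w hw
    rwa [hshift2 ξ g g⁻¹, inv_mul_cancel, hone] at h1
  have hEinv : ∀ ξ, ∀ s ∈ Q, ∀ w ∈ Ew ξ, ρ s w ∈ Ew ξ := by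
    intro ξ s hs w hw
    rw [hEmem] at hw ⊢
    intro z
    rw [← Module.End.mul_apply, ((hZmem _).mp z.2).2 s hs, Module.End.mul_apply, hw, map_smul]
  -- each translate separately
  have hlocal : ∀ g : G, ∃ k, ∀ w ∈ (Ew χ).map (ρ g), ∀ t ∈ Q,
      ρ (ω ^ q ^ k * t * (ω ^ q ^ k)⁻¹) w = ρ t w := by
    intro g
    set W := (Ew χ).map (ρ g) with hWdef
    set ξ := shift χ g
    have hWξ : W = Ew ξ := hmap χ g
    have hWne : W ≠ ⊥ := fun h => hv0 (rho_injective (ρ := ρ) g (by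
      rw [map_zero]
      exact (Submodule.eq_bot_iff _).mp h _ ⟨v, (hEmem χ v).mpr hχ, rfl⟩))
    have hWlt : Module.finrank K W < d := by
      rw [← hd]
      refine lt_of_le_of_lt (le_of_eq ?_) (Submodule.finrank_lt htop)
      exact ((Submodule.equivMapOfInjective _ (rho_injective g) _).finrank_eq).symm
    set H := stab ρ W with hH
    have hQH : Q ≤ H := fun s hs => mem_stab fun w hw => by rw [hWξ] at hw ⊢; exact hEinv ξ s hs w hw
    have hroot : ∀ u ∈ U, ∃ (a : ℕ) (x : G) (n : ℕ), a < n ∧ x ^ 2 ^ n = 1 ∧ u = x ^ 2 ^ (n - 1) ∧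
        x ^ 2 ^ a ∈ H ∧ ∀ w ∈ W, ((ρ (x ^ 2 ^ a) - 1) ^ (2 ^ (n - a) - 1) : Module.End K V) w = 0 := by
      intro u hu
      obtain ⟨x, n, -, hxN, hux, hexc⟩ := hU u hu
      have hex : ∃ a, shift ξ (x ^ 2 ^ a) = ξ := ⟨n, by rw [hxN, hone]⟩
      set a := Nat.find hex with ha
      have hfix := Nat.find_spec hex
      rw [← ha] at hfix
      have han : a ≤ n := Nat.find_min' hex (by rw [hxN, hone])
      have hdist : Set.InjOn (fun j : ℕ => shift ξ (x ^ j)) (Finset.range (2 ^ a)) := by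
        have key : ∀ i j : ℕ, i ≤ j → j < 2 ^ a → shift ξ (x ^ i) = shift ξ (x ^ j) → i = j := by
          intro i j hle hj hij
          by_contra hne
          have hd1 : shift ξ (x ^ (j - i)) = ξ := by
            have h1 := congrArg (fun η => shift η (x ^ i)⁻¹) hij
            simp only [hshift2, inv_mul_cancel, hone] at h1
            rw [show x ^ (j - i) = (x ^ i)⁻¹ * x ^ j from eq_inv_mul_iff_mul_eq.mpr (by
              rw [← pow_add, Nat.add_sub_cancel' hle])]
            exact h1.symm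
          have hdl : ∀ l : ℕ, shift ξ ((x ^ (j - i)) ^ l) = ξ := by
            intro l
            induction l with
            | zero => rw [pow_zero, hone]
            | succ l ihl => rw [pow_succ', ← hshift2, ihl, hd1]
          obtain ⟨b, -, hb⟩ := (Nat.dvd_prime_pow Nat.prime_two).mp (Nat.gcd_dvd_right (j - i) (2 ^ n))
          have hba : b < a := by
            have h1 := Nat.le_of_dvd (show 0 < j - i by omega) (hb ▸ Nat.gcd_dvd_left (j - i) (2 ^ n))
            exact (Nat.pow_lt_pow_iff_right one_lt_two).mp (by omega)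
          apply Nat.find_min hex (show b < Nat.find hex by omega)
          obtain ⟨l, hl⟩ : x ^ 2 ^ b ∈ Submonoid.powers (x ^ (j - i)) := by
            have hfin : IsOfFinOrder x := isOfFinOrder_iff_pow_eq_one.mpr ⟨2 ^ n, Nat.two_pow_pos n, hxN⟩
            rw [IsOfFinOrder.mem_powers_iff_mem_zpowers hfin.pow]
            have h1 : x ^ ((Nat.gcd (j - i) (2 ^ n) : ℕ) : ℤ) ∈ Subgroup.zpowers (x ^ (j - i)) := by
              rw [Nat.gcd_eq_gcd_ab, zpow_add, zpow_mul, zpow_mul, zpow_natCast, zpow_natCast, hxN, one_zpow,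
                mul_one]
              exact Subgroup.zpow_mem _ (Subgroup.mem_zpowers _) _
            rwa [zpow_natCast, hb] at h1
          simp only at hl
          rw [← hl]
          exact hdl l
        intro i hi j hj hij
        simp only [Finset.coe_range, Set.mem_Iio] at hi hj
        rcases le_total i j with h | h
        · exact key i j h hj hij
        · exact (key j i h hi hij.symm).symm
      have hindep : ∀ w0 ∈ W, ((ρ x - 1) ^ (2 ^ a - 1) : Module.End K V) w0 = 0 → w0 = 0 := by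
        intro w0 hw0 h
        rw [rho_sub_one_pow_pred, LinearMap.sum_apply] at h
        rw [hWξ] at hw0
        have h1 := eq_zero_of_sum_weights T (fun j : ℕ => shift ξ (x ^ j)) _ hdist
          (fun j => ρ (x ^ j) w0) (fun j _ z => (hEmem _ _).mp (hshift ξ _ w0 hw0) z)
          (by simpa only [map_pow] using h) 0 (Finset.mem_range.mpr (Nat.two_pow_pos a))
        simpa using h1
      have han' : a < n := lt_of_le_of_ne han fun he => by
        obtain ⟨w, hw, hw0⟩ := Submodule.exists_mem_ne_zero_of_ne_bot hWne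
        exact hw0 (hindep w hw (by rw [he, hexc, LinearMap.zero_apply]))
      have hzH : x ^ 2 ^ a ∈ H := by
        show W.map (ρ (x ^ 2 ^ a)) = W
        rw [hWξ, hmap ξ, hfix]
      refine ⟨a, x, n, han', hxN, hux, hzH, fun w hw => hindep _ ?_ ?_⟩
      · have hstable : ∀ j : ℕ, ∀ w ∈ W, ((ρ (x ^ 2 ^ a) - 1) ^ j) w ∈ W := by
          intro j
          induction j with
          | zero => intro w hw; simpa using hw
          | succ j ihj =>
            intro w hw
            rw [pow_succ', Module.End.mul_apply, LinearMap.sub_apply, Module.End.one_apply]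
            exact W.sub_mem (apply_mem_of_mem_stab hzH (ihj w hw)) (ihj w hw)
        exact hstable _ w hw
      · have h1 : 2 ^ a * 2 ^ (n - a) = 2 ^ n := by rw [← pow_add, Nat.add_sub_cancel' han]
        have h2 := Nat.one_le_pow (n - a) 2 two_pos
        have h3 := Nat.one_le_pow a 2 two_pos
        obtain ⟨e, he⟩ := Nat.exists_eq_add_of_le h2
        rw [he, mul_add, mul_one] at h1
        rw [map_pow, ← rho_sub_one_pow, ← pow_mul, ← Module.End.mul_apply, ← pow_add, he,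
          Nat.add_sub_cancel_left, show 2 ^ a - 1 + 2 ^ a * e = 2 ^ n - 1 by omega, hexc, LinearMap.zero_apply]
    have hUH : U ⊆ H := by
      intro u hu
      obtain ⟨a, x, n, han, -, hux, hzH, -⟩ := hroot u hu
      have e : x ^ 2 ^ (n - 1) = (x ^ 2 ^ a) ^ 2 ^ (n - 1 - a) := by
        rw [← pow_mul, ← pow_add]; congr 2; omega
      rw [hux, e]
      exact H.pow_mem hzH _
    have hInv : Inv ρ H W := fun g hg v hv => apply_mem_of_mem_stab hg hv
    haveI : (Q.subgroupOf H).Normal := (inferInstance : Q.Normal).subgroupOf H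
    obtain ⟨⟨ω', hω'H⟩, hω', rfl⟩ := oddPart_le_map hUH hω
    haveI : Group.IsSolvable H := inferInstance
    obtain ⟨k, hk⟩ := ih _ hWlt H W (restr ρ H W hInv) (Q.subgroupOf H) rfl
      (hQ.of_equiv (Subgroup.subgroupOfEquivOfLe hQH).symm)
      (fun a ha b hb c hc => Subtype.ext (by
        have h := hclass _ ha _ hb _ hc
        have e : ((⁅a, b⁆ : H) : G) = ⁅(a : G), (b : G)⁆ := map_commutatorElement H.subtype a b
        rw [Subgroup.coe_mul, Subgroup.coe_mul, e]
        exact h))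
      {u : H | (u : G) ∈ U} (fun u hu => by
        obtain ⟨a, x, n, han, hxN, hux, hzH, hexc⟩ := hroot _ hu
        refine ⟨⟨x ^ 2 ^ a, hzH⟩, n - a, by omega, Subtype.ext ?_, Subtype.ext ?_, LinearMap.ext fun w => ?_⟩
        · show (x ^ 2 ^ a) ^ 2 ^ (n - a) = 1
          rw [← pow_mul, ← pow_add, Nat.add_sub_cancel' han.le, hxN]
        · show (u : G) = (x ^ 2 ^ a) ^ 2 ^ (n - a - 1)
          rw [hux, ← pow_mul, ← pow_add]; congr 2; omega
        · refine Subtype.ext ?_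
          rw [rho_pow_sub_one_restr]
          exact hexc w w.2) ⟨ω', hω'H⟩ hω'
    refine ⟨k, fun w hw t ht => ?_⟩
    exact congrArg Subtype.val (LinearMap.congr_fun (hk ⟨t, hQH ht⟩ ht) ⟨w, hw⟩)
  choose kf hkf using hlocal
  letI := Fintype.ofFinite G
  set k := Finset.univ.sup kf with hk
  refine ⟨k, fun t ht => ?_⟩
  set S : Submodule K V := ⨆ g : G, (Ew χ).map (ρ g)
  have hS : S = ⊤ := by
    refine (hirr S fun h w hw => ?_).resolve_left fun h => ?_
    · have : S ≤ S.comap (ρ h) := iSup_le fun g => by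
        rintro _ ⟨x, hx, rfl⟩
        refine Submodule.mem_iSup_of_mem (h * g) ⟨x, hx, ?_⟩
        rw [rho_mul]
      exact this hw
    · exact hv0 ((Submodule.eq_bot_iff _).mp h v
        (Submodule.mem_iSup_of_mem (1 : G) ⟨v, (hEmem χ v).mpr hχ, by simp⟩))
  have hle : S ≤ LinearMap.ker (ρ (ω ^ q ^ k * t * (ω ^ q ^ k)⁻¹) - ρ t) := by
    refine iSup_le fun g w hw => ?_
    rw [LinearMap.mem_ker, LinearMap.sub_apply, sub_eq_zero]
    obtain ⟨d', hd'⟩ := Nat.exists_eq_add_of_le (Finset.le_sup (f := kf) (Finset.mem_univ g))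
    rw [← hk] at hd'
    rw [hd', pow_add, pow_mul]
    generalize q ^ d' = j
    set c := ω ^ q ^ kf g
    clear hd'
    induction j generalizing t with
    | zero => simp
    | succ j ihj =>
      rw [show c ^ (j + 1) * t * (c ^ (j + 1))⁻¹ = c * (c ^ j * t * (c ^ j)⁻¹) * c⁻¹ by rw [pow_succ']; group,
        hkf g w hw _ (hQn (c ^ j) t ht), ihj t ht]
  exact LinearMap.ext fun w => by
    have := hle (hS ▸ (Submodule.mem_top : w ∈ (⊤ : Submodule K V)))
    rwa [LinearMap.mem_ker, LinearMap.sub_apply, sub_eq_zero] at this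

/-- The odd part of the group generated by exceptional tops acts as a `q`-group on the image. -/
theorem exists_fix {K : Type w} [Field K] [CharP K 2] {G : Type u} [Group G] [Finite G] [Group.IsSolvable G]
    {V : Type v} [AddCommGroup V] [Module K V] [FiniteDimensional K V] (hq2 : q ≠ 2)
    (ρ : G →* Module.End K V) (Q : Subgroup G) [Q.Normal] (hQ : IsPGroup q Q)
    (hclass : ∀ a ∈ Q, ∀ b ∈ Q, ∀ c ∈ Q, ⁅a, b⁆ * c = c * ⁅a, b⁆) (U : Set G) (hU : ∀ u ∈ U, IsExcTop ρ u) :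
    ∀ ω ∈ oddPart U, ∃ k, ω ^ q ^ k ∈ fixImage ρ Q := by
  intro ω hω
  haveI : Fact (Nat.Prime 2) := ⟨Nat.prime_two⟩
  haveI : CharP (AlgebraicClosure K) 2 := charP_of_injective_algebraMap (algebraMap K _).injective 2
  have hqK : (q : AlgebraicClosure K) ≠ 0 := fun h => hq2
    ((Nat.prime_dvd_prime_iff_eq Nat.prime_two Fact.out).mp ((CharP.cast_eq_zero_iff _ 2 q).mp h)).symm
  obtain ⟨D, φ, hφ⟩ := exists_extendScalars (K := K) (V := V) (AlgebraicClosure K)
  obtain ⟨k, hk⟩ := exists_fix_aux hq2 hqK _ G (Fin D → AlgebraicClosure K) (φ.toMonoidHom.comp ρ) Q rfl hQ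
    hclass U (fun u hu => by
      obtain ⟨x, n, hn, hx, hux, hexc⟩ := hU u hu
      refine ⟨x, n, hn, hx, hux, ?_⟩
      show (φ (ρ x) - 1) ^ (2 ^ n - 1) = 0
      rw [← map_one φ, ← map_sub, ← map_pow, hexc, map_zero]) ω hω
  exact ⟨k, fun t ht => hφ (hk t ht)⟩

end Cfsg.Agent.Lib.TwoLength
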