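import Mathlib.LinearAlgebra.FiniteDimensional.Basic
import Mathlib.LinearAlgebra.Dimension.Finite
import Mathlib.GroupTheory.PGroup
import Mathlib.GroupTheory.Nilpotent
import Mathlib.Tactic.NoncommRing
import Mathlib.LinearAlgebra.FiniteDimensional.Lemmas
import Mathlib.Order.Atoms.Finite

set_option autoImplicit false
set_option linter.unusedSectionVars false

/-!
Operators of order four moving only a plane, in a `2`-group acting over a field without square root of `-1`.
-/

namespace Cfsg.Agent.Lib.TwoLength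

open scoped commutatorElement

variable {k E : Type*} [Field k] [AddCommGroup E] [Module k E] [FiniteDimensional k E]

/-- `T` has order four and moves only a plane. -/
def IsPlane (T : Module.End k E) : Prop :=
  T * T * (T * T) = 1 ∧ T * T ≠ 1 ∧ Module.finrank k (LinearMap.range (T - 1)) ≤ 2

theorem rho_cancel_apply {G : Type*} [Group G] (φ : G →* Module.End k E) (g : G) {a b : E} (h : φ g a = φ g b) :
    a = b := by
  have h1 := congrArg (φ g⁻¹) h
  rwa [← Module.End.mul_apply, ← Module.End.mul_apply, ← map_mul, inv_mul_cancel, map_one, Module.End.one_apply,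
    Module.End.one_apply] at h1

variable (h2 : (2 : k) ≠ 0) (hi : ∀ c : k, c * c ≠ -1)
include h2 hi

theorem eq_zero_of_eq_neg {v : E} (h : v = -v) : v = 0 := by
  have h1 : (2 : k) • v = 0 := by rw [two_smul]; nth_rw 1 [h]; exact neg_add_cancel v
  exact (smul_eq_zero.mp h1).resolve_left h2

/-- No line is stable under an operator with square `-1`. -/
theorem two_le_finrank {T : Module.End k E} {X : Submodule k E} (hX : X ≠ ⊥)
    (hsq : ∀ v ∈ X, T (T v) = -v) (hinv : ∀ v ∈ X, T v ∈ X) : 2 ≤ Module.finrank k X := by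
  by_contra hlt
  have h1 : Module.finrank k X = 1 := by
    have : Module.finrank k X ≠ 0 := fun h => hX (Submodule.finrank_eq_zero.mp h)
    omega
  obtain ⟨v, hv, hv0⟩ := Submodule.exists_mem_ne_zero_of_ne_bot hX
  obtain ⟨c, hc⟩ := (finrank_eq_one_iff_of_nonzero' (⟨v, hv⟩ : X)
    (fun h => hv0 (congrArg Subtype.val h))).mp h1 ⟨T v, hinv v hv⟩
  have hc' : c • v = T v := congrArg Subtype.val hc
  have h3 := hsq v hv
  rw [← hc', map_smul, ← hc', smul_smul, show -v = (-1 : k) • v by simp] at h3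
  exact hi c (smul_left_injective k hv0 h3)

theorem IsPlane.sq_apply {T : Module.End k E} (hT : IsPlane T) {v : E}
    (hv : v ∈ LinearMap.range (T * T - 1)) : (T * T) v = -v := by
  obtain ⟨w, rfl⟩ := hv
  have h1 : (T * T) ((T * T) w) = w := LinearMap.congr_fun hT.1 w
  rw [LinearMap.sub_apply, Module.End.one_apply, map_sub, h1]
  abel

theorem IsPlane.spec {T : Module.End k E} (hT : IsPlane T) :
    LinearMap.range (T * T - 1) = LinearMap.range (T - 1) ∧ Module.finrank k (LinearMap.range (T - 1)) = 2 ∧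
      LinearMap.ker (T * T - 1) = LinearMap.ker (T - 1) ∧
      (∀ v ∈ LinearMap.range (T - 1), T (T v) = -v ∧ T v ∈ LinearMap.range (T - 1)) ∧
      Disjoint (LinearMap.range (T - 1)) (LinearMap.ker (T - 1)) ∧
      LinearMap.range (T - 1) ⊔ LinearMap.ker (T - 1) = ⊤ := by
  have hle : LinearMap.range (T * T - 1) ≤ LinearMap.range (T - 1) := by
    rw [show T * T - 1 = (T - 1) * (T + 1) by noncomm_ring]
    exact LinearMap.range_comp_le_range _ _
  have hsq : ∀ v ∈ LinearMap.range (T * T - 1), T (T v) = -v := fun v hv => hT.sq_apply h2 hi hv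
  have hne : LinearMap.range (T * T - 1) ≠ ⊥ := fun h =>
    hT.2.1 (sub_eq_zero.mp (LinearMap.range_eq_bot.mp h))
  have hinv : ∀ v ∈ LinearMap.range (T * T - 1), T v ∈ LinearMap.range (T * T - 1) := by
    rintro _ ⟨w, rfl⟩
    exact ⟨T w, by simp [LinearMap.sub_apply]⟩
  have hge := two_le_finrank h2 hi hne hsq hinv
  have heq : LinearMap.range (T * T - 1) = LinearMap.range (T - 1) :=
    Submodule.eq_of_le_of_finrank_le hle (le_trans hT.2.2 hge)
  have hker : LinearMap.ker (T - 1) ≤ LinearMap.ker (T * T - 1) := by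
    intro v hv
    rw [LinearMap.mem_ker, LinearMap.sub_apply, Module.End.one_apply, sub_eq_zero] at hv ⊢
    rw [Module.End.mul_apply, hv, hv]
  have e1 := LinearMap.finrank_range_add_finrank_ker (T * T - 1)
  have e2 := LinearMap.finrank_range_add_finrank_ker (T - 1)
  rw [heq] at e1
  have hkereq := (Submodule.eq_of_le_of_finrank_le hker (by omega)).symm
  have hdis : Disjoint (LinearMap.range (T - 1)) (LinearMap.ker (T - 1)) := by
    rw [Submodule.disjoint_def]
    intro v hv hv'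
    rw [LinearMap.mem_ker, LinearMap.sub_apply, Module.End.one_apply, sub_eq_zero] at hv'
    have h3 := hsq v (heq ▸ hv)
    rw [hv', hv'] at h3
    exact eq_zero_of_eq_neg h2 hi h3
  refine ⟨heq, ?_, hkereq, fun v hv => ⟨hsq v (heq ▸ hv), heq ▸ hinv v (heq ▸ hv)⟩, hdis,
    Submodule.eq_top_of_disjoint _ _ e2.ge hdis⟩
  have := hT.2.2
  rw [heq] at hge
  omega

theorem IsPlane.eq_bot_or_eq {T : Module.End k E} (hT : IsPlane T) {X : Submodule k E}
    (hX : X ≤ LinearMap.range (T - 1)) (hinv : ∀ v ∈ X, T v ∈ X) : X = ⊥ ∨ X = LinearMap.range (T - 1) := by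
  obtain ⟨-, hdim, -, hsq, -, -⟩ := hT.spec h2 hi
  rcases eq_or_ne X ⊥ with h | h
  · exact Or.inl h
  · exact Or.inr (Submodule.eq_of_le_of_finrank_le hX
      (hdim.le.trans (two_le_finrank h2 hi h (fun v hv => (hsq v (hX hv)).1) hinv)))

/-- Commuting involutions with the same plane are equal. -/
theorem IsPlane.sq_eq {T T' : Module.End k E} (hT : IsPlane T) (hT' : IsPlane T')
    (hc : T * T * (T' * T') = T' * T' * (T * T)) (h : LinearMap.range (T - 1) = LinearMap.range (T' - 1)) :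
    T * T = T' * T' := by
  obtain ⟨hr, -, -, -, -, -⟩ := hT.spec h2 hi
  obtain ⟨hr', -, -, -, hdis', hsup'⟩ := hT'.spec h2 hi
  refine LinearMap.ext fun v => ?_
  obtain ⟨a, ha, c, hcm, rfl⟩ := Submodule.mem_sup.mp (hsup'.ge (Submodule.mem_top : v ∈ ⊤))
  have ha' : (T * T) a = -a := hT.sq_apply h2 hi (by rw [hr, h]; exact ha)
  have ha'' : (T' * T') a = -a := hT'.sq_apply h2 hi (by rw [hr']; exact ha)
  have hc2 : T' c = c := by
    rw [LinearMap.mem_ker, LinearMap.sub_apply, Module.End.one_apply, sub_eq_zero] at hcm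
    exact hcm
  have hc3 : (T' * T') c = c := by rw [Module.End.mul_apply, hc2, hc2]
  have h4 : (T * T - 1) c ∈ LinearMap.range (T' - 1) := by
    rw [← h, ← hr]; exact LinearMap.mem_range_self _ _
  have h5 : (T' * T') ((T * T - 1) c) = (T * T - 1) c := by
    rw [LinearMap.sub_apply, Module.End.one_apply, map_sub, hc3, ← Module.End.mul_apply, ← hc,
      Module.End.mul_apply, hc3]
  have h6 := hT'.sq_apply h2 hi (by rw [hr']; exact h4 : (T * T - 1) c ∈ LinearMap.range (T' * T' - 1))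
  rw [h5] at h6
  have h7 := eq_zero_of_eq_neg h2 hi h6
  rw [LinearMap.sub_apply, Module.End.one_apply, sub_eq_zero] at h7
  rw [map_add, map_add, ha', ha'', h7, hc3]

/-- A plane element commuting with the square of another has the same plane or fixes the other plane. -/
theorem IsPlane.eq_or_le {T T' : Module.End k E} (hT : IsPlane T) (hT' : IsPlane T')
    (hc : T * (T' * T') = T' * T' * T) :
    LinearMap.range (T' - 1) = LinearMap.range (T - 1) ∨ LinearMap.range (T' - 1) ≤ LinearMap.ker (T - 1) := by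
  obtain ⟨-, hdim, -, hsq, -, -⟩ := hT.spec h2 hi
  obtain ⟨hr', hdim', -, -, -, -⟩ := hT'.spec h2 hi
  have hinv : ∀ v ∈ LinearMap.range (T' - 1), T v ∈ LinearMap.range (T' - 1) := by
    intro v hv
    rw [← hr'] at hv ⊢
    obtain ⟨w, rfl⟩ := hv
    refine ⟨T w, ?_⟩
    rw [LinearMap.sub_apply, LinearMap.sub_apply, Module.End.one_apply, Module.End.one_apply, map_sub,
      ← Module.End.mul_apply, ← hc, Module.End.mul_apply]
  rcases hT.eq_bot_or_eq h2 hi (X := LinearMap.range (T - 1) ⊓ LinearMap.range (T' - 1)) inf_le_left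
    (fun v hv => ⟨(hsq v hv.1).2, hinv v hv.2⟩) with h | h
  · refine Or.inr fun v hv => ?_
    have h1 : (T - 1) v ∈ LinearMap.range (T - 1) ⊓ LinearMap.range (T' - 1) :=
      ⟨LinearMap.mem_range_self _ _, (LinearMap.range (T' - 1)).sub_mem (hinv v hv) hv⟩
    rw [h, Submodule.mem_bot] at h1
    exact h1
  · exact Or.inl (Submodule.eq_of_le_of_finrank_le (inf_eq_left.mp h) (by omega)).symm

omit h2 hi
variable {G : Type*} [Group G]

theorem IsPlane.conj {φ : G →* Module.End k E} {s : G} (hs : IsPlane (φ s)) (t : G) :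
    IsPlane (φ (t * s * t⁻¹)) ∧ LinearMap.range (φ (t * s * t⁻¹) - 1) = (LinearMap.range (φ s - 1)).map (φ t) := by
  have hinv : φ t * φ t⁻¹ = 1 := by rw [← map_mul, mul_inv_cancel, map_one]
  have hsub : φ (t * s * t⁻¹) - 1 = φ t * (φ s - 1) * φ t⁻¹ := by
    rw [map_mul, map_mul, mul_sub, sub_mul, mul_one, hinv]
  have hsurj : Function.Surjective (φ t⁻¹) := fun v => ⟨φ t v, by
    rw [← Module.End.mul_apply, ← map_mul, inv_mul_cancel, map_one, Module.End.one_apply]⟩
  have hrange : LinearMap.range (φ (t * s * t⁻¹) - 1) = (LinearMap.range (φ s - 1)).map (φ t) := by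
    rw [hsub, Module.End.mul_eq_comp, LinearMap.range_comp_of_range_eq_top _ (LinearMap.range_eq_top.mpr hsurj),
      Module.End.mul_eq_comp, LinearMap.range_comp]
  refine ⟨⟨?_, fun h => hs.2.1 ?_, ?_⟩, hrange⟩
  · rw [← map_mul, ← map_mul,
      show t * s * t⁻¹ * (t * s * t⁻¹) * (t * s * t⁻¹ * (t * s * t⁻¹)) = t * (s * s * (s * s)) * t⁻¹ by group,
      map_mul, map_mul, map_mul, map_mul, hs.1, mul_one, hinv]
  · have h1 : φ (t⁻¹ * ((t * s * t⁻¹) * (t * s * t⁻¹)) * t) = 1 := by
      rw [map_mul, map_mul, map_mul φ (t * s * t⁻¹), h, mul_one, ← map_mul, inv_mul_cancel, map_one]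
    rwa [show t⁻¹ * ((t * s * t⁻¹) * (t * s * t⁻¹)) * t = s * s by group, map_mul] at h1
  · rw [hrange]
    exact (Submodule.finrank_map_le _ _).trans hs.2.2

include h2 hi

/-- In a `2`-group a plane element commutes with the square of every plane element. -/
theorem commute_sq [Finite G] (φ : G →* Module.End k E) : ∀ (P : Subgroup G), IsPGroup 2 P →
    ∀ s ∈ P, ∀ s' ∈ P, IsPlane (φ s) → IsPlane (φ s') →
      φ s * (φ s' * φ s') = φ s' * φ s' * φ s := by
  intro P
  induction hn : Nat.card P using Nat.strong_induction_on generalizing P with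
  | _ n ih =>
  intro hP s hs s' hs' hT hT'
  haveI : Fact (Nat.Prime 2) := ⟨Nat.prime_two⟩
  have ih' : ∀ M : Subgroup G, M < P → ∀ a ∈ M, ∀ b ∈ M, IsPlane (φ a) → IsPlane (φ b) →
      φ a * (φ b * φ b) = φ b * φ b * φ a := fun M hM =>
    ih _ (hn ▸ lt_of_le_of_ne (Subgroup.card_le_of_le hM.le)
      (fun h => hM.ne (Subgroup.eq_of_le_of_card_ge hM.le h.ge))) M rfl (hP.to_le hM.le)
  by_cases hcyc : P ≤ Subgroup.zpowers s
  · obtain ⟨i, hi'⟩ := Subgroup.mem_zpowers_iff.mp (hcyc hs')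
    rw [← map_mul, ← map_mul, ← map_mul]
    congr 1
    rw [← hi']
    exact ((Commute.self_zpow s i).mul_right (Commute.self_zpow s i)).eq
  -- a normal maximal subgroup containing `s`
  haveI : Finite P := inferInstance
  obtain ⟨M0, hM0, hsM0⟩ : ∃ M : Subgroup P, IsCoatom M ∧ Subgroup.zpowers (⟨s, hs⟩ : P) ≤ M :=
    (IsCoatomic.eq_top_or_exists_le_coatom _).resolve_left fun h => hcyc fun x hx => by
      have := h.ge (Subgroup.mem_top (⟨x, hx⟩ : P))
      obtain ⟨i, hi'⟩ := Subgroup.mem_zpowers_iff.mp this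
      exact Subgroup.mem_zpowers_iff.mpr ⟨i, congrArg Subtype.val hi'⟩
  haveI : Group.IsNilpotent P := hP.isNilpotent
  haveI hMn : M0.Normal := Subgroup.NormalizerCondition.normal_of_coatom M0 Group.normalizerCondition_of_isNilpotent hM0
  have hconj : ∀ t ∈ P, φ s * (φ (t * s * t⁻¹) * φ (t * s * t⁻¹)) = φ (t * s * t⁻¹) * φ (t * s * t⁻¹) * φ s := by
    intro t ht
    refine ih' (M0.map P.subtype) ?_ s ⟨⟨s, hs⟩, hsM0 (Subgroup.mem_zpowers _), rfl⟩ (t * s * t⁻¹)
      ⟨⟨t, ht⟩ * ⟨s, hs⟩ * ⟨t, ht⟩⁻¹, hMn.conj_mem _ (hsM0 (Subgroup.mem_zpowers _)) _, rfl⟩ hT (hT.conj t).1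
    refine lt_of_le_of_ne (Subgroup.map_subtype_le M0) fun h => hM0.1 ?_
    refine Subgroup.map_injective P.subtype_injective ?_
    rw [h, ← MonoidHom.range_eq_map, Subgroup.range_subtype]
  obtain ⟨hr, hdim, hker, hsq, hdis, hsup⟩ := hT.spec h2 hi
  obtain ⟨hr', hdim', -, hsq', -, -⟩ := hT'.spec h2 hi
  obtain ⟨hT1, hA1⟩ := hT.conj (φ := φ) s'
  set A := LinearMap.range (φ s - 1) with hAdef
  set A' := LinearMap.range (φ s' - 1) with hA'def
  have hfixed : ∀ {v : E}, v ∈ LinearMap.ker (φ s - 1) → φ s v = v := fun {v} hv =>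
    sub_eq_zero.mp hv
  rcases hT.eq_or_le h2 hi hT1 (hconj s' hs') with h | h
  · -- `s'` preserves the plane of `s`
    have hUeq : φ s * φ s = φ (s' * s * s'⁻¹) * φ (s' * s * s'⁻¹) := hT.sq_eq h2 hi hT1 (by
      rw [mul_assoc, hconj s' hs', ← mul_assoc, hconj s' hs', mul_assoc]) h.symm
    have hcomm : φ s * φ s * φ s' = φ s' * (φ s * φ s) := by
      nth_rw 1 [hUeq]
      rw [← map_mul, ← map_mul, ← map_mul, ← map_mul]
      congr 1
      group
    have hAinv : ∀ v ∈ A, φ s' v ∈ A := fun v hv => by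
      rw [show A = _ from h.symm, hA1]; exact Submodule.mem_map_of_mem hv
    rcases hT'.eq_bot_or_eq h2 hi (X := A ⊓ A') inf_le_right
      (fun v hv => ⟨hAinv v hv.1, (hsq' v hv.2).2⟩) with hX | hX
    · have hAfix : ∀ a ∈ A, φ s' a = a := fun a ha => by
        have h1 : (φ s' - 1) a ∈ A ⊓ A' := ⟨A.sub_mem (hAinv a ha) ha, LinearMap.mem_range_self _ _⟩
        rw [hX, Submodule.mem_bot] at h1
        exact sub_eq_zero.mp h1
      refine LinearMap.ext fun v => ?_
      obtain ⟨a, ha, c, hc, rfl⟩ := Submodule.mem_sup.mp (hsup.ge (Submodule.mem_top : v ∈ ⊤))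
      have hUc : φ s' (φ s' c) ∈ LinearMap.ker (φ s - 1) := by
        have hstep : ∀ x ∈ LinearMap.ker (φ s - 1), φ s' x ∈ LinearMap.ker (φ s - 1) := by
          intro x hx
          rw [← hker, LinearMap.mem_ker, LinearMap.sub_apply, Module.End.one_apply, sub_eq_zero] at hx ⊢
          rw [← Module.End.mul_apply, hcomm, Module.End.mul_apply, hx]
        exact hstep _ (hstep c hc)
      simp only [Module.End.mul_apply, map_add, hAfix a ha, hAfix _ (hsq a ha).2, hfixed hc, hfixed hUc]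
    · have hAA : A' = A := (Submodule.eq_of_le_of_finrank_le (hX.symm.le.trans inf_le_left) (by omega))
      rw [← hT.sq_eq h2 hi hT' (by rw [← mul_assoc, hcomm, mul_assoc, hcomm, ← mul_assoc]) hAA.symm, mul_assoc]
  · -- `s'` cannot move the plane of `s`
    exfalso
    have hB : ∀ a ∈ A, φ s' a ∈ LinearMap.ker (φ s - 1) := fun a ha =>
      h (hA1 ▸ Submodule.mem_map_of_mem ha)
    have hzero : ∀ a ∈ A, φ s' a ∈ A → a = 0 := fun a ha h' => by
      have h1 := Submodule.disjoint_def.mp hdis _ h' (hB a ha)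
      rw [← Module.End.one_apply (R := k) a, ← map_one φ, ← inv_mul_cancel s', map_mul, Module.End.mul_apply,
        h1, map_zero]
    let F : A →ₗ[k] A' := ((φ s' - 1).comp A.subtype).codRestrict A' fun a => LinearMap.mem_range_self _ _
    have hFi : Function.Injective F := by
      rw [injective_iff_map_eq_zero]
      intro a ha
      have h1 : φ s' (a : E) = a := sub_eq_zero.mp (congrArg Subtype.val ha)
      exact Subtype.ext (hzero a a.2 (h1.symm ▸ a.2))
    have hFs : ∀ y ∈ A', ∃ a ∈ A, φ s' a - a = y := fun y hy => by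
      obtain ⟨a, ha⟩ := (LinearMap.injective_iff_surjective_of_finrank_eq_finrank (by omega)).mp hFi ⟨y, hy⟩
      exact ⟨a, a.2, congrArg Subtype.val ha⟩
    obtain ⟨hT2, hA2⟩ := hT.conj (φ := φ) (s' * s')
    have hfix : ∀ a ∈ A, φ s' (φ s' a) = a := by
      intro a ha
      obtain ⟨b, hb, hba⟩ := hFs (φ s' (φ s' a - a)) (hsq' _ (LinearMap.mem_range_self (φ s' - 1) a)).2
      rw [map_sub] at hba
      have hmem : φ s' (φ s' a) ∈ LinearMap.range (φ (s' * s' * s * (s' * s')⁻¹) - 1) := by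
        rw [hA2, ← Module.End.mul_apply, ← map_mul]
        exact Submodule.mem_map_of_mem ha
      rcases hT.eq_or_le h2 hi hT2 (hconj _ (P.mul_mem hs' hs')) with h3 | h3
      · rw [h3] at hmem
        have h5 : a + b = 0 := hzero _ (A.add_mem ha hb) (by
          rw [map_add, show φ s' a + φ s' b = φ s' (φ s' a) + b by
            rw [← sub_add_cancel (φ s' (φ s' a)) (φ s' a), ← hba]; abel]
          exact A.add_mem hmem hb)
        rw [eq_neg_of_add_eq_zero_right h5, map_neg] at hba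
        rw [← sub_add_cancel (φ s' (φ s' a)) (φ s' a), ← hba]
        abel
      · have h4 : b = φ s' (a + b) - φ s' (φ s' a) := by
          rw [map_add, ← sub_add_cancel (φ s' (φ s' a)) (φ s' a), ← hba]; abel
        have h5 : b = 0 := Submodule.disjoint_def.mp hdis b hb (h4 ▸
          (LinearMap.ker (φ s - 1)).sub_mem (hB _ (A.add_mem ha hb)) (h3 hmem))
        rw [h5, map_zero, sub_zero] at hba
        have h8 : φ s' a = a := rho_cancel_apply φ s' (sub_eq_zero.mp hba.symm)
        rw [h8, h8]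
    obtain ⟨y, hy, hy0⟩ := Submodule.exists_mem_ne_zero_of_ne_bot (p := A') fun h' => by
      rw [h', finrank_bot] at hdim'; omega
    obtain ⟨a, ha, rfl⟩ := hFs y hy
    have h7 := (hsq' _ hy).1
    simp only [map_sub, hfix a ha] at h7
    exact hy0 (eq_zero_of_eq_neg h2 hi h7)

/-- The commutator with the square of a plane element is a square. -/
theorem commutator_sq [Finite G] (φ : G →* Module.End k E) (P : Subgroup G) (hP : IsPGroup 2 P) {s t : G}
    (hs : s ∈ P) (ht : t ∈ P) (hT : IsPlane (φ s)) :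
    φ ⁅t, s * s⁆ = 1 ∨ φ ⁅t, s * s⁆ = φ (⁅t, s⁆ * ⁅t, s⁆) := by
  set s1 := t * s * t⁻¹ with hs1
  have hs1P : s1 ∈ P := P.mul_mem (P.mul_mem ht hs) (P.inv_mem ht)
  obtain ⟨hT1, -⟩ := hT.conj (φ := φ) t
  have c1 := commute_sq h2 hi φ P hP s hs s1 hs1P hT hT1
  have c2 := commute_sq h2 hi φ P hP s1 hs1P s hs hT1 hT
  by_cases hsame : LinearMap.range (φ s1 - 1) = LinearMap.range (φ s - 1)
  · left
    have h := hT.sq_eq h2 hi hT1 (by rw [mul_assoc, c1, ← mul_assoc, c1, mul_assoc]) hsame.symm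
    rw [show ⁅t, s * s⁆ = s1 * s1 * (s * s)⁻¹ by rw [hs1, commutatorElement_def]; group, map_mul, map_mul,
      ← h, ← map_mul, ← map_mul, mul_inv_cancel, map_one]
  · right
    have k1 := (hT.eq_or_le h2 hi hT1 c1).resolve_left hsame
    have k2 := (hT1.eq_or_le h2 hi hT c2).resolve_left fun h => hsame h.symm
    have e1 : (φ s - 1) * (φ s1 - 1) = 0 := LinearMap.ext fun v => k1 (LinearMap.mem_range_self _ v)
    have e2 : (φ s1 - 1) * (φ s - 1) = 0 := LinearMap.ext fun v => k2 (LinearMap.mem_range_self _ v)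
    have hcom : φ s * φ s1 = φ s1 * φ s := by
      have e3 : (φ s - 1) * (φ s1 - 1) = (φ s1 - 1) * (φ s - 1) := e1.trans e2.symm
      simp only [mul_sub, sub_mul, one_mul, mul_one] at e3
      have e4 := sub_eq_zero.mpr e3
      rw [← sub_eq_zero, ← e4]
      abel
    rw [show ⁅t, s * s⁆ = s1 * s1 * s⁻¹ * s⁻¹ by rw [hs1, commutatorElement_def]; group,
      show ⁅t, s⁆ = s1 * s⁻¹ by rw [hs1, commutatorElement_def]]
    have hinvc : φ s⁻¹ * φ s1 = φ s1 * φ s⁻¹ := by
      have e5 : φ s⁻¹ * (φ s * φ s1) * φ s⁻¹ = φ s⁻¹ * (φ s1 * φ s) * φ s⁻¹ := by rw [hcom]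
      simp only [← map_mul] at e5 ⊢
      rw [show s⁻¹ * (s * s1) * s⁻¹ = s1 * s⁻¹ by group, show s⁻¹ * (s1 * s) * s⁻¹ = s⁻¹ * s1 by group] at e5
      exact e5.symm
    simp only [map_mul]
    rw [mul_assoc (φ s1) (φ s⁻¹), ← mul_assoc (φ s⁻¹) (φ s1), hinvc]
    simp only [mul_assoc]

end Cfsg.Agent.Lib.TwoLength
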